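import Cfsg.Agent.Lib.Helper50.QuadIso

set_option autoImplicit false

namespace Cfsg.Agent.Lib.Helper50.CC

variable {F : Type*} [Field F]

/-- ANI. -/
theorem exists_aniso [Finite F] :
    ∃ a' c' : F, ∀ z₁ z₂ : F, z₁ ^ 2 + a' * z₁ * z₂ + c' * z₂ ^ 2 = 0 → z₁ = 0 ∧ z₂ = 0 := by
  obtain ⟨ζ, hζ⟩ := Cfsg.Agent.Lib.Helper50.Quad.exists_noroot (F := F)
  refine ⟨1, ζ, fun z₁ z₂ h => ?_⟩
  by_cases h2 : z₂ = 0
  · subst h2
    refine ⟨?_, rfl⟩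
    have : z₁ ^ 2 = 0 := by linear_combination h
    exact pow_eq_zero_iff (two_ne_zero) |>.1 this
  · exfalso
    apply hζ (z₁ / z₂)
    field_simp
    linear_combination h

end Cfsg.Agent.Lib.Helper50.CC
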