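import Cfsg.Agent.Lib.Helper50.CC.Defs

/-!
# Ladder CC, rung AR1: if the order `i` of `q` modulo `r` is even then `r ∣ q ^ (i / 2) + 1`.
(The hypothesis `r ≠ p` is needed: for `r = p` the order is `0`, which is even.)
-/

set_option autoImplicit false

namespace Cfsg.Agent.Lib.Helper50.CC

/-- AR1. -/
theorem exists_pow_neg_one {F : Type*} [Field F] [Fintype F] (p : ℕ) [Fact p.Prime] [CharP F p] (r i : ℕ)
    (hr : r.Prime) (hr2 : r ≠ 2) (hrp : r ≠ p) (hi : i = orderOf ((Fintype.card F : ℕ) : ZMod r))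
    (hev : Even i) : ∃ e : ℕ, (∀ c : F, c ^ (p ^ e) = (RingHom.id F) c) ∧ r ∣ p ^ e + 1 := by
  have : Fact r.Prime := ⟨hr⟩
  obtain ⟨f, hp', hcard⟩ := FiniteField.card F p
  have hpe : p ^ ((f : ℕ) * (i / 2)) = Fintype.card F ^ (i / 2) := by rw [hcard, pow_mul]
  refine ⟨(f : ℕ) * (i / 2), fun c => ?_, ?_⟩
  · rw [hpe, FiniteField.pow_card_pow]; rfl
  · set x : ZMod r := ((Fintype.card F : ℕ) : ZMod r) with hx
    have hx0 : x ≠ 0 := by
      intro h0
      rw [hx, ZMod.natCast_eq_zero_iff, hcard] at h0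
      exact hrp ((Nat.prime_dvd_prime_iff_eq hr hp').mp (hr.dvd_of_dvd_pow h0))
    have hipos : 0 < i := by
      rw [hi, orderOf_pos_iff, isOfFinOrder_iff_pow_eq_one]
      exact ⟨r - 1, Nat.sub_pos_of_lt hr.one_lt, ZMod.pow_card_sub_one_eq_one hx0⟩
    obtain ⟨j, hj⟩ := hev
    have hj2 : i / 2 = j := by omega
    have h1 : x ^ j * x ^ j = 1 := by
      rw [← pow_add, ← hj, hi, pow_orderOf_eq_one]
    have h2 : x ^ j ≠ 1 := by
      intro h
      have := orderOf_dvd_of_pow_eq_one h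
      rw [← hi] at this
      have := Nat.le_of_dvd (by omega) this
      omega
    have h3 : x ^ j = -1 := (mul_self_eq_one_iff.mp h1).resolve_left h2
    rw [← ZMod.natCast_eq_zero_iff, hpe, hj2]
    push_cast
    rw [← hx, h3]
    ring

end Cfsg.Agent.Lib.Helper50.CC
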