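import Cfsg.Agent.Lib.Helper50.CC.Defs

set_option autoImplicit false

namespace Cfsg.Agent.Lib.Helper50.CC

/-- AR2. -/
theorem orderOf_sq (q r i b : ℕ) (hi : i = orderOf (q : ZMod r)) (hb : b = if Odd i then i else i / 2) :
    b = orderOf (((q ^ 2 : ℕ) : ℕ) : ZMod r) := by
  rw [Nat.cast_pow, orderOf_pow' _ (two_ne_zero), ← hi, hb]
  split_ifs with h
  · have : Nat.gcd i 2 = 1 := by
      rw [Nat.coprime_comm.mp]
      exact (Nat.coprime_two_left.mpr h)
    rw [this, Nat.div_one]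
  · have h2 : 2 ∣ i := (Nat.not_odd_iff_even.mp h).two_dvd
    rw [Nat.gcd_eq_right h2]

end Cfsg.Agent.Lib.Helper50.CC
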