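import Cfsg.Agent.Lib.Helper50.CC.Defs
import Cfsg.Agent.Lib.Helper50.GUConj2
import Cfsg.Agent.Lib.Helper50.GUFrames

set_option autoImplicit false

namespace Cfsg.Agent.Lib.Helper50.CC

open Polynomial Cfsg.Agent.Lib.Helper65.GR Cfsg.Agent.Lib.Helper50 Cfsg.Agent.Lib.Helper50.GUConj
  Cfsg.Agent.Lib.Helper50.Herm

variable {K : Type*} [Field K] [Fintype K] {q n : ℕ}

/-- AR3. -/
theorem exists_pow_neg_one_gu (hK : Fintype.card K = q ^ 2) (p : ℕ) [Fact p.Prime] [CharP K p] (r i : ℕ)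
    (hr : r.Prime) (hr2 : r ≠ 2) (hi : i = orderOf (q : ZMod r)) (h4 : i % 4 = 2) :
    ∃ e : ℕ, (∀ c : K, c ^ (p ^ e) = frobQ hK c) ∧ r ∣ p ^ e + 1 := by
  have : Fact r.Prime := ⟨hr⟩
  have hp : p.Prime := Fact.out
  obtain ⟨k, -, hk⟩ := FiniteField.card K p
  have hqd : q ∣ p ^ (k : ℕ) := by
    rw [← hk, hK]; exact Dvd.intro_left _ (by ring)
  obtain ⟨f, -, hf⟩ := (Nat.dvd_prime_pow hp).mp hqd
  obtain ⟨j, hj⟩ : ∃ j, i / 2 = 2 * j + 1 := ⟨i / 4, by omega⟩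
  refine ⟨f * (i / 2), ?_, ?_⟩
  · intro c
    rw [pow_mul, ← hf, frobQ_apply, hj, pow_succ, pow_mul, pow_mul, ← hK, FiniteField.pow_card_pow]
  · rw [pow_mul, ← hf, ← ZMod.natCast_eq_zero_iff]
    push_cast
    have h1 : ((q : ZMod r) ^ (i / 2)) ^ 2 = 1 := by
      rw [← pow_mul]
      have : i / 2 * 2 = i := by omega
      rw [this, hi, pow_orderOf_eq_one]
    have h2 : (q : ZMod r) ^ (i / 2) ≠ 1 := by
      apply pow_ne_one_of_lt_orderOf (by omega)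
      rw [← hi]; omega
    have h3 : ((q : ZMod r) ^ (i / 2) - 1) * ((q : ZMod r) ^ (i / 2) + 1) = 0 := by
      linear_combination h1
    rcases mul_eq_zero.mp h3 with h | h
    · exact absurd (sub_eq_zero.mp h) h2
    · exact h

end Cfsg.Agent.Lib.Helper50.CC
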