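import Cfsg.Agent.Lib.Helper50.CC.Defs

set_option autoImplicit false

namespace Cfsg.Agent.Lib.Helper50.CC

/-- AR4. -/
theorem not_dvd_card_GU (q r i b : ℕ) (hr : r.Prime) (hr2 : r ≠ 2) (hrq : ¬ r ∣ q) (hi : i = orderOf (q : ZMod r))
    (hb : b = if Odd i then i else i / 2) (h4 : i % 4 ≠ 2) :
    ¬ r ∣ q ^ (b * (b - 1) / 2) *
      ∏ j ∈ Finset.range b, (if Even j then q ^ (j + 1) + 1 else q ^ (j + 1) - 1) := by
  haveI : Fact r.Prime := ⟨hr⟩
  intro h
  rcases (Nat.Prime.dvd_mul hr).mp h with h | h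
  · exact hrq (hr.dvd_of_dvd_pow h)
  rw [Prime.dvd_finsetProd_iff hr.prime] at h
  obtain ⟨j, hj, hd⟩ := h
  rw [Finset.mem_range] at hj
  have hq0 : 0 < q := by
    rcases Nat.eq_zero_or_pos q with h0 | h0
    · exact absurd (h0 ▸ dvd_zero r) hrq
    · exact h0
  have hne : (-1 : ZMod r) ≠ 1 := by
    intro h1
    have h2 : ((2 : ℕ) : ZMod r) = 0 := by
      push_cast
      linear_combination -h1
    rw [ZMod.natCast_eq_zero_iff] at h2
    exact hr2 ((Nat.prime_dvd_prime_iff_eq hr Nat.prime_two).mp h2)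
  split_ifs at hd with he
  · -- k = j + 1 odd, x ^ k = -1
    have h1 : (q : ZMod r) ^ (j + 1) = -1 := by
      rw [← ZMod.natCast_eq_zero_iff] at hd
      push_cast at hd
      linear_combination hd
    have h2 : (q : ZMod r) ^ (2 * (j + 1)) = 1 := by
      rw [mul_comm, pow_mul, h1]; ring
    have h3 : i ∣ 2 * (j + 1) := by rw [hi]; exact orderOf_dvd_of_pow_eq_one h2
    have h5 : ¬ i ∣ j + 1 := by
      intro h6
      rw [hi, orderOf_dvd_iff_pow_eq_one, h1] at h6
      exact hne h6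
    obtain ⟨a, ha⟩ := he
    rcases Nat.even_or_odd i with hie | hio
    · obtain ⟨c, hc⟩ := hie
      have h6 : c ∣ j + 1 := by
        have : 2 * c ∣ 2 * (j + 1) := by rw [two_mul, ← hc]; exact h3
        exact Nat.dvd_of_mul_dvd_mul_left (by norm_num) this
      have h7 : Odd c := by
        have : Odd (j + 1) := ⟨a, by omega⟩
        exact Odd.of_dvd_nat this h6
      obtain ⟨d, hd'⟩ := h7
      omega
    · apply h5
      exact (Nat.Coprime.dvd_of_dvd_mul_left (Nat.coprime_two_right.mpr hio) h3)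
  · have h1 : (q : ZMod r) ^ (j + 1) = 1 := by
      rw [← ZMod.natCast_eq_zero_iff, Nat.cast_sub (Nat.one_le_pow _ _ hq0)] at hd
      push_cast at hd
      linear_combination hd
    have h3 : i ∣ j + 1 := by rw [hi]; exact orderOf_dvd_of_pow_eq_one h1
    have h5 := Nat.le_of_dvd (by omega) h3
    have hjo : Odd j := Nat.not_even_iff_odd.mp he
    obtain ⟨a, ha⟩ := hjo
    split_ifs at hb with hio
    · obtain ⟨c, hc⟩ := hio
      omega
    · have : 0 < i := Nat.pos_of_dvd_of_pos h3 (by omega)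
      omega

end Cfsg.Agent.Lib.Helper50.CC
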