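import Cfsg.Agent.Lib.Helper50.CC.Defs2

/-! Ladder CC, rung CAY: the Cayley form. -/

set_option autoImplicit false

namespace Cfsg.Agent.Lib.Helper50.CC

open Polynomial Cfsg.Agent.Lib.Helper65.GR QuadraticMap Matrix

variable {F : Type*} [Field F]

theorem cay_polar {ι : Type*} [Fintype ι] [DecidableEq ι] (M : Matrix ι ι F) :
    polarBilin (LinearMap.BilinMap.toQuadraticMap (Matrix.toBilin' M)) =
      Matrix.toBilin' (M + Mᵀ) := by
  apply LinearMap.ext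
  intro x
  apply LinearMap.ext
  intro y
  show QuadraticMap.polar (LinearMap.BilinMap.toQuadraticMap (Matrix.toBilin' M)) x y = _
  rw [LinearMap.BilinMap.polar_toQuadraticMap, Matrix.toBilin'_apply', Matrix.toBilin'_apply',
    Matrix.toBilin'_apply', Matrix.add_mulVec, dotProduct_add]
  congr 1
  rw [Matrix.dotProduct_mulVec x, Matrix.vecMul_transpose, dotProduct_comm]

/-- CAY. -/
theorem cayley {k : ℕ} (s : Matrix.symplecticGroup (Fin k) F)
    (h1 : IsUnit (1 - (s : Matrix (Fin k ⊕ Fin k) (Fin k ⊕ Fin k) F)))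
    (h2 : IsUnit (1 + (s : Matrix (Fin k ⊕ Fin k) (Fin k ⊕ Fin k) F))) :
    ∃ Q' : QuadraticForm F (Fin k ⊕ Fin k → F), (polarBilin Q').Nondegenerate ∧
      ∀ v, Q' ((s : Matrix (Fin k ⊕ Fin k) (Fin k ⊕ Fin k) F) *ᵥ v) = Q' v := by
  classical
  obtain ⟨S, hS⟩ : ∃ S : Matrix (Fin k ⊕ Fin k) (Fin k ⊕ Fin k) F, S = s := ⟨_, rfl⟩
  obtain ⟨J, hJ⟩ : ∃ J : Matrix (Fin k ⊕ Fin k) (Fin k ⊕ Fin k) F, J = Matrix.J (Fin k) F :=
    ⟨_, rfl⟩
  rw [← hS] at h1 h2 ⊢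
  have hsJ : Sᵀ * J * S = J := by
    have h3 := SymplecticGroup.mem_iff'.1 s.2
    rw [hS, hJ]
    exact h3
  have hJt : Jᵀ = -J := by
    rw [hJ]
    exact Matrix.J_transpose _ _
  have hJdet : J.det ≠ 0 := by
    rw [hJ]
    exact (Matrix.isUnit_det_J _ _).ne_zero
  have hd1 : (1 - S).det ≠ 0 := ((Matrix.isUnit_iff_isUnit_det _).1 h1).ne_zero
  have hd2 : (1 + S).det ≠ 0 := ((Matrix.isUnit_iff_isUnit_det _).1 h2).ne_zero
  obtain ⟨D, hD⟩ := h1
  obtain ⟨T, hT⟩ : ∃ T : Matrix (Fin k ⊕ Fin k) (Fin k ⊕ Fin k) F, T = ((D⁻¹ : _ˣ) : Matrix _ _ F) :=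
    ⟨_, rfl⟩
  have hTD : T * (1 - S) = 1 := by
    rw [← hD, hT]
    exact Units.inv_mul D
  have hDT : (1 - S) * T = 1 := by
    rw [← hD, hT]
    exact Units.mul_inv D
  have hcomm : S * T = T * S := by
    calc S * T = (T * (1 - S)) * S * T := by rw [hTD, one_mul]
      _ = T * S * ((1 - S) * T) := by noncomm_ring
      _ = T * S := by rw [hDT, mul_one]
  have hinvM : Sᵀ * (Tᵀ * J) * S = Tᵀ * J := by
    calc Sᵀ * (Tᵀ * J) * S = (Sᵀ * Tᵀ) * J * S := by simp only [mul_assoc]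
      _ = (Tᵀ * Sᵀ) * J * S := by
        rw [← Matrix.transpose_mul, ← hcomm, Matrix.transpose_mul]
      _ = Tᵀ * (Sᵀ * J * S) := by simp only [mul_assoc]
      _ = Tᵀ * J := by rw [hsJ]
  have e1 : (1 - S)ᵀ * Tᵀ = 1 := by rw [← Matrix.transpose_mul, hTD, Matrix.transpose_one]
  have key : (1 - S)ᵀ * (Tᵀ * J + (Tᵀ * J)ᵀ) * (1 - S) * S = J * (1 - S) * (1 + S) := by
    rw [Matrix.transpose_mul, Matrix.transpose_transpose, hJt]
    calc (1 - S)ᵀ * (Tᵀ * J + -J * T) * (1 - S) * S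
        = ((1 - S)ᵀ * Tᵀ) * J * (1 - S) * S - (1 - S)ᵀ * J * (T * (1 - S)) * S := by
          noncomm_ring
      _ = J * (1 - S) * S - (1 - S)ᵀ * J * S := by rw [e1, hTD, one_mul, mul_one]
      _ = J * (1 - S) * S - (J * S - Sᵀ * J * S) := by
          rw [Matrix.transpose_sub, Matrix.transpose_one]
          noncomm_ring
      _ = J * (1 - S) * (1 + S) := by
          rw [hsJ]
          noncomm_ring
  have hNdet : (Tᵀ * J + (Tᵀ * J)ᵀ).det ≠ 0 := by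
    intro h0
    have h3 := congrArg Matrix.det key
    rw [Matrix.det_mul, Matrix.det_mul, Matrix.det_mul, Matrix.det_mul, Matrix.det_mul, h0,
      mul_zero, zero_mul, zero_mul] at h3
    exact mul_ne_zero (mul_ne_zero hJdet hd1) hd2 h3.symm
  refine ⟨LinearMap.BilinMap.toQuadraticMap (Matrix.toBilin' (Tᵀ * J)), ?_, ?_⟩
  · rw [cay_polar]
    exact Matrix.Nondegenerate.toBilin' (Matrix.nondegenerate_of_det_ne_zero hNdet)
  · intro v
    rw [LinearMap.BilinMap.toQuadraticMap_apply, LinearMap.BilinMap.toQuadraticMap_apply,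
      Matrix.toBilin'_apply', Matrix.toBilin'_apply']
    conv_rhs => rw [← hinvM]
    have h5 : ∀ w : Fin k ⊕ Fin k → F, (S *ᵥ v) ⬝ᵥ w = v ⬝ᵥ (Sᵀ *ᵥ w) := by
      intro w
      rw [Matrix.dotProduct_mulVec, Matrix.vecMul_transpose]
    rw [h5, Matrix.mulVec_mulVec, Matrix.mulVec_mulVec, ← mul_assoc]

end Cfsg.Agent.Lib.Helper50.CC
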