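import Cfsg.Agent.Lib.Helper50.CC.Defs2

set_option autoImplicit false

namespace Cfsg.Agent.Lib.Helper50.CC

open Polynomial Cfsg.Agent.Lib.Helper65.GR

variable {F : Type*} [Field F]

/-- CPM. -/
theorem cp_mul (r n₁ n₂ i : ℕ) (a b : irr F r → ℕ) (ha : i * ∑ P, a P ≤ n₁) (hb : i * ∑ P, b P ≤ n₂) :
    cp F r n₁ i a * cp F r n₂ i b = cp F r (n₁ + n₂) i (a + b) := by
  unfold cp
  have h1 : n₁ + n₂ - i * ∑ P, (a + b) P = (n₁ - i * ∑ P, a P) + (n₂ - i * ∑ P, b P) := by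
    simp only [Pi.add_apply, Finset.sum_add_distrib, mul_add]
    omega
  rw [h1, pow_add]
  simp only [Pi.add_apply, pow_add, Finset.prod_mul_distrib]
  ring

/-- CPM. -/
theorem cp_mul_pow (r n i k : ℕ) (a : irr F r → ℕ) (ha : i * ∑ P, a P ≤ n) :
    cp F r n i a * (X - 1) ^ k = cp F r (n + k) i a := by
  unfold cp
  have h1 : n + k - i * ∑ P, a P = (n - i * ∑ P, a P) + k := by omega
  rw [h1, pow_add]
  ring

end Cfsg.Agent.Lib.Helper50.CC
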