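import Cfsg.Agent.Lib.Helper50.CC.Defs2

set_option autoImplicit false

namespace Cfsg.Agent.Lib.Helper50.CC

open Polynomial Cfsg.Agent.Lib.Helper65.GR Matrix

variable {F : Type*} [Field F]

/-- FIXV. -/
theorem no_fixed {ι : Type*} [Fintype ι] [DecidableEq ι] (r n i : ℕ) (hr : r.Prime) (hrF : (r : F) ≠ 0)
    (a : irr F r → ℕ) (hfull : i * ∑ P, a P = n) (M : Matrix ι ι F) (hc : M.charpoly = cp F r n i a)
    (v : ι → F) (hv : M *ᵥ v = v) : v = 0 := by
  have h1 : (cp F r n i a).eval 1 ≠ 0 := by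
    unfold cp
    rw [hfull, Nat.sub_self, pow_zero, one_mul, eval_prod]
    apply Finset.prod_ne_zero_iff.2
    intro P _
    rw [eval_pow]
    apply pow_ne_zero
    intro h0
    obtain ⟨u, w, huw⟩ := irr_coprime r hr hrF P.1 P.2
    have := congrArg (eval 1) huw
    simp [h0] at this
  rw [← hc, Matrix.eval_charpoly] at h1
  have h2 : (Matrix.scalar ι (1 : F) - M) *ᵥ v = 0 := by
    rw [Matrix.sub_mulVec, hv]
    simp
  by_contra hv0
  exact h1 (Matrix.exists_mulVec_eq_zero_iff.1 ⟨v, hv0, h2⟩)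

end Cfsg.Agent.Lib.Helper50.CC
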