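import Cfsg.Agent.Lib.Helper50.CC.Defs2

set_option autoImplicit false

namespace Cfsg.Agent.Lib.Helper50.CC

open QuadraticMap

variable {F : Type*} [Field F]

theorem osum_polar {α β : Type*} (Q₁ : QuadraticForm F (α → F))
    (Q₂ : QuadraticForm F (β → F)) (u v : α ⊕ β → F) :
    polar (osum Q₁ Q₂) u v = polar Q₁ (fun x => u (Sum.inl x)) (fun x => v (Sum.inl x)) +
      polar Q₂ (fun y => u (Sum.inr y)) (fun y => v (Sum.inr y)) := by
  unfold polar
  rw [osum_apply, osum_apply, osum_apply]
  have e1 : (fun x => (u + v) (Sum.inl x)) = (fun x => u (Sum.inl x)) + (fun x => v (Sum.inl x)) := rfl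
  have e2 : (fun x => (u + v) (Sum.inr x)) = (fun x => u (Sum.inr x)) + (fun x => v (Sum.inr x)) := rfl
  rw [e1, e2]
  ring

/-- OSUM. -/
theorem osum_nondeg {α β : Type*} [Fintype α] [Fintype β] (Q₁ : QuadraticForm F (α → F))
    (Q₂ : QuadraticForm F (β → F)) (h₁ : (polarBilin Q₁).Nondegenerate) (h₂ : (polarBilin Q₂).Nondegenerate) :
    (polarBilin (osum Q₁ Q₂)).Nondegenerate := by
  have key : ∀ u : α ⊕ β → F, (∀ v, polar (osum Q₁ Q₂) u v = 0) → u = 0 := by
    intro u hu
    have a1 : (fun x => u (Sum.inl x)) = 0 := by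
      apply h₁.1
      intro x
      have := hu (Sum.elim x 0)
      rw [osum_polar] at this
      have z : polar Q₂ (fun y => u (Sum.inr y)) (fun y => (Sum.elim x (0 : β → F)) (Sum.inr y)) = 0 :=
        polar_zero_right (Q := Q₂) _
      rw [z, add_zero] at this
      exact this
    have a2 : (fun x => u (Sum.inr x)) = 0 := by
      apply h₂.1
      intro y
      have := hu (Sum.elim 0 y)
      rw [osum_polar] at this
      have z : polar Q₁ (fun x => u (Sum.inl x)) (fun x => (Sum.elim (0 : α → F) y) (Sum.inl x)) = 0 :=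
        polar_zero_right (Q := Q₁) _
      rw [z, zero_add] at this
      exact this
    funext z
    rcases z with z | z
    · exact congrFun a1 z
    · exact congrFun a2 z
  refine ⟨fun u hu => key u hu, fun u hu => key u fun v => ?_⟩
  rw [polar_comm]
  exact hu v

end Cfsg.Agent.Lib.Helper50.CC
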