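import Cfsg.Agent.Lib.Helper50.CC.SPX
import Cfsg.Agent.Lib.Helper50.CC.FIXV
import Cfsg.Agent.Lib.Helper50.CC.CAY
import Cfsg.Agent.Lib.Helper50.CC.OSUM
import Cfsg.Agent.Lib.Helper50.CC.CPM

set_option autoImplicit false

namespace Cfsg.Agent.Lib.Helper50.CC

open Polynomial Cfsg.Agent.Lib.Helper65.GR QuadraticMap Matrix

variable {F : Type*} [Field F]

theorem build_pow {α β : Type*} [Fintype α] [DecidableEq α] [Fintype β] [DecidableEq β] (S : Matrix α α F)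
    (j : ℕ) : (fromBlocks S 0 0 (1 : Matrix β β F)) ^ j = fromBlocks (S ^ j) 0 0 1 := by
  induction j with
  | zero => simp
  | succ j ih => rw [pow_succ, ih, fromBlocks_multiply, pow_succ]; simp

theorem build_unit {α : Type*} [Fintype α] [DecidableEq α] (A : Matrix α α F)
    (h : ∀ v, A *ᵥ v = 0 → v = 0) : IsUnit A := by
  rw [← Matrix.mulVec_injective_iff_isUnit]
  intro v w hvw
  have : A *ᵥ (v - w) = 0 := by rw [mulVec_sub, hvw, sub_self]
  exact sub_eq_zero.mp (h _ this)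

/-- BUILD. -/
theorem build [Fintype F] (p : ℕ) [Fact p.Prime] [CharP F p] (r i k : ℕ) (hr : r.Prime) (hr2 : r ≠ 2) (hrp : r ≠ p)
    (hi : 1 ≤ i) (hdeg : ∀ P ∈ irr F r, P.natDegree = i) (a : irr F r → ℕ) (ha0 : a ≠ 0)
    (hak : i * ∑ P, a P = 2 * k) (hsym : ∀ P, a (st (RingHom.id F) r P) = a P)
    {ι₁ : Type} [Fintype ι₁] [DecidableEq ι₁] (Q₁ : QuadraticForm F (ι₁ → F))
    (hQ₁ : (polarBilin Q₁).Nondegenerate) :
    ∃ (Q : QuadraticForm F ((Fin k ⊕ Fin k) ⊕ ι₁ → F)) (M : Matrix.GeneralLinearGroup ((Fin k ⊕ Fin k) ⊕ ι₁) F),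
      (polarBilin Q).Nondegenerate ∧ (∀ v, Q (M.1 *ᵥ v) = Q v) ∧ orderOf M = r ∧
      M.1.charpoly = cp F r (2 * k + Fintype.card ι₁) i a ∧
      Nat.card {v : (Fin k ⊕ Fin k) ⊕ ι₁ → F // Q v = 0 ∧ M.1 *ᵥ v = v} =
        Nat.card {y : ι₁ → F // Q₁ y = 0} := by
  have hp : p.Prime := Fact.out
  have hrF : (r : F) ≠ 0 := by
    intro h
    rw [CharP.cast_eq_zero_iff F p r] at h
    exact hrp ((Nat.prime_dvd_prime_iff_eq hp hr).mp h).symm
  obtain ⟨s, hs, hsc⟩ := sp_exists_order p k r i hr hrp hi hdeg a ha0 (le_of_eq hak) hsym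
    (by rw [hak]; simp)
  obtain ⟨S, hS⟩ : ∃ S : Matrix (Fin k ⊕ Fin k) (Fin k ⊕ Fin k) F, S = s := ⟨_, rfl⟩
  obtain ⟨S', hS'⟩ : ∃ S' : Matrix (Fin k ⊕ Fin k) (Fin k ⊕ Fin k) F, S' = (s⁻¹ : Matrix.symplecticGroup (Fin k) F) :=
    ⟨_, rfl⟩
  have hSS' : S * S' = 1 := by
    rw [hS, hS']; exact congrArg Subtype.val (mul_inv_cancel s)
  have hS'S : S' * S = 1 := by
    rw [hS, hS']; exact congrArg Subtype.val (inv_mul_cancel s)
  have hSr : S ^ r = 1 := by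
    rw [hS, ← SubmonoidClass.coe_pow, ← hs, pow_orderOf_eq_one]; rfl
  have hS1 : S ≠ 1 := by
    intro h
    have : s = 1 := Subtype.ext (by rw [← hS, h]; rfl)
    rw [this, orderOf_one] at hs
    exact hr.one_lt.ne hs
  rw [← hS] at hsc
  have hfix : ∀ v, S *ᵥ v = v → v = 0 := no_fixed r (2 * k) i hr hrF a hak S hsc
  have h1 : IsUnit (1 - S) := by
    apply build_unit
    intro v hv
    rw [sub_mulVec, one_mulVec, sub_eq_zero] at hv
    exact hfix v hv.symm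
  have h2 : IsUnit (1 + S) := by
    apply build_unit
    intro v hv
    rw [add_mulVec, one_mulVec] at hv
    have hSv : S *ᵥ v = -v := by
      rw [eq_neg_iff_add_eq_zero, add_comm]; exact hv
    have hj : ∀ j : ℕ, (S ^ (2 * j)) *ᵥ v = v := by
      intro j
      induction j with
      | zero => simp
      | succ j ih =>
        rw [show 2 * (j + 1) = 2 * j + 1 + 1 by ring, pow_succ, pow_succ, mul_assoc, ← mulVec_mulVec,
          ← mulVec_mulVec, hSv, mulVec_neg, hSv, neg_neg, ih]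
    obtain ⟨j, hj'⟩ := hr.odd_of_ne_two hr2
    have h3 : (S ^ r) *ᵥ v = -v := by
      rw [hj', pow_succ, ← mulVec_mulVec, hSv, mulVec_neg, hj]
    rw [hSr, one_mulVec] at h3
    apply hfix
    rw [hSv, ← h3]
  rw [hS] at h1 h2
  obtain ⟨Q', hQ', hQ's⟩ := cayley s h1 h2
  rw [← hS] at hQ's
  have hMM' : fromBlocks S 0 0 (1 : Matrix ι₁ ι₁ F) * fromBlocks S' 0 0 1 = 1 := by
    rw [fromBlocks_multiply]; simp [hSS']
  have hM'M : fromBlocks S' 0 0 (1 : Matrix ι₁ ι₁ F) * fromBlocks S 0 0 1 = 1 := by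
    rw [fromBlocks_multiply]; simp [hS'S]
  have hMv : ∀ v : (Fin k ⊕ Fin k) ⊕ ι₁ → F, fromBlocks S 0 0 (1 : Matrix ι₁ ι₁ F) *ᵥ v =
      Sum.elim (S *ᵥ (fun x => v (Sum.inl x))) (fun y => v (Sum.inr y)) := by
    intro v
    rw [fromBlocks_mulVec]
    simp only [zero_mulVec, add_zero, zero_add, one_mulVec]
    rfl
  refine ⟨osum Q' Q₁, ⟨fromBlocks S 0 0 1, fromBlocks S' 0 0 1, hMM', hM'M⟩, osum_nondeg Q' Q₁ hQ' hQ₁,
    ?_, ?_, ?_, ?_⟩
  · intro v
    show osum Q' Q₁ (fromBlocks S 0 0 (1 : Matrix ι₁ ι₁ F) *ᵥ v) = _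
    rw [hMv, osum_apply, osum_apply]
    simp only [Sum.elim_inl, Sum.elim_inr]
    rw [hQ's]
  · haveI : Fact r.Prime := ⟨hr⟩
    apply orderOf_eq_prime
    · apply Units.ext
      show (fromBlocks S 0 0 (1 : Matrix ι₁ ι₁ F)) ^ r = 1
      rw [build_pow, hSr, fromBlocks_one]
    · intro h
      have h3 : fromBlocks S 0 0 (1 : Matrix ι₁ ι₁ F) = 1 := congrArg Units.val h
      rw [← fromBlocks_one, fromBlocks_inj] at h3
      exact hS1 h3.1
  · show (fromBlocks S 0 0 (1 : Matrix ι₁ ι₁ F)).charpoly = _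
    rw [charpoly_fromBlocks_zero₁₂, hsc, charpoly_one, cp_mul_pow r (2 * k) i _ a (le_of_eq hak)]
  · show Nat.card {v : (Fin k ⊕ Fin k) ⊕ ι₁ → F // osum Q' Q₁ v = 0 ∧
      fromBlocks S 0 0 (1 : Matrix ι₁ ι₁ F) *ᵥ v = v} = _
    have hz : ∀ v : (Fin k ⊕ Fin k) ⊕ ι₁ → F, fromBlocks S 0 0 (1 : Matrix ι₁ ι₁ F) *ᵥ v = v →
        (fun x => v (Sum.inl x)) = 0 := by
      intro v hv
      apply hfix
      rw [hMv] at hv
      funext x
      have := congrFun hv (Sum.inl x)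
      simpa using this
    apply Nat.card_congr
    refine ⟨fun v => ⟨fun y => v.1 (Sum.inr y), ?_⟩, fun y => ⟨Sum.elim 0 y.1, ?_, ?_⟩, ?_, ?_⟩
    · have h3 := v.2.1
      rw [osum_apply, hz v.1 v.2.2, map_zero, zero_add] at h3
      exact h3
    · rw [osum_apply]
      simp only [Sum.elim_inl, Sum.elim_inr]
      have : (fun x : Fin k ⊕ Fin k => (0 : Fin k ⊕ Fin k → F) x) = 0 := rfl
      rw [this, map_zero, zero_add]
      exact y.2
    · rw [hMv]
      simp only [Sum.elim_inl, Sum.elim_inr]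
      have : (fun x : Fin k ⊕ Fin k => (0 : Fin k ⊕ Fin k → F) x) = 0 := rfl
      rw [this, mulVec_zero]
    · intro v
      apply Subtype.ext
      funext x
      rcases x with x | y
      · have := congrFun (hz v.1 v.2.2) x
        simpa using this.symm
      · rfl
    · intro y
      rfl

end Cfsg.Agent.Lib.Helper50.CC
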