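import Cfsg.Agent.Lib.Helper50.CC.Defs2
import Cfsg.Agent.Lib.Helper50.QuadIso

/-! Ladder CC, rung CLSE: classification of non-degenerate quadratic forms in even dimension. -/

set_option autoImplicit false

namespace Cfsg.Agent.Lib.Helper50.CC

open QuadraticMap

variable {F : Type*} [Field F]

theorem clse_minus (a' c' : F) (d : ℕ) (v : (Fin d ⊕ Fin d) ⊕ Fin 2 → F) :
    Cfsg.quadFormMinus d F a' c' v = Quad.Qgen d (Quad.T2 1 a' c') v := by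
  rw [Quad.Qgen_apply, Quad.T2_apply, one_mul]
  rfl

theorem clse_plus (m : ℕ) (x : (Fin m ⊕ Fin m) ⊕ Empty → F) :
    Cfsg.quadFormPlus m F (fun s => x (Sum.inl s)) = Quad.Qgen m (Quad.T0 F) x := by
  rw [Quad.Qgen_apply]
  simp [Cfsg.quadFormPlus]

/-- CLSE. -/
theorem classify_pm [Fintype F] (a' c' : F)
    (hac : ∀ z₁ z₂ : F, z₁ ^ 2 + a' * z₁ * z₂ + c' * z₂ ^ 2 = 0 → z₁ = 0 ∧ z₂ = 0)
    {V : Type*} [AddCommGroup V] [Module F V] [FiniteDimensional F V]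
    (Q : QuadraticForm F V) (hQ : (polarBilin Q).Nondegenerate) (d : ℕ) (hV : Module.finrank F V = 2 * (d + 1)) :
    (∃ φ : V ≃ₗ[F] (Fin (d + 1) ⊕ Fin (d + 1) → F), ∀ v, Cfsg.quadFormPlus (d + 1) F (φ v) = Q v) ∨
    (∃ φ : V ≃ₗ[F] ((Fin d ⊕ Fin d) ⊕ Fin 2 → F), ∀ v, Cfsg.quadFormMinus d F a' c' (φ v) = Q v) := by
  rcases Quad.classify_even a' c' hac d hV (Quad.nondeg_top hQ) with ⟨g, hg⟩ | ⟨g, hg⟩
  · left
    refine ⟨g.trans (LinearEquiv.funCongrLeft F F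
      (Equiv.sumEmpty (Fin (d + 1) ⊕ Fin (d + 1)) Empty).symm), fun v => ?_⟩
    rw [← hg, ← clse_plus]
    rfl
  · right
    exact ⟨g, fun v => by rw [clse_minus, hg]⟩

end Cfsg.Agent.Lib.Helper50.CC
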