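import Cfsg.Agent.Lib.Helper50.CC.Defs2
import Cfsg.Agent.Lib.Helper50.QuadIso

/-! Ladder CC, rung CLSO: classification of non-degenerate quadratic forms in odd dimension (up to a scalar). -/

set_option autoImplicit false

namespace Cfsg.Agent.Lib.Helper50.CC

open QuadraticMap

variable {F : Type*} [Field F]

/-- the unary form `c x²` -/
noncomputable def clsoT (c : F) : QuadraticForm F (Unit → F) :=
  c • QuadraticMap.linMulLin (LinearMap.proj ()) (LinearMap.proj ())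

theorem clsoT_apply (c : F) (s : Unit → F) : clsoT c s = c * (s () * s ()) := rfl

theorem clsoT_polar (c : F) (u v : Unit → F) : polar (clsoT c) u v = 2 * c * (u () * v ()) := by
  simp only [polar, clsoT_apply, Pi.add_apply]
  ring

theorem clsoT_nondeg (h2 : (2 : F) ≠ 0) (c : F) (hc : c ≠ 0) : Quad.Nondeg (clsoT c) ⊤ := by
  intro w _ hw
  refine ⟨w, Submodule.mem_top, ?_⟩
  rw [clsoT_polar]
  have hw0 : w () ≠ 0 := by
    intro h
    apply hw
    funext u
    exact h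
  exact mul_ne_zero (mul_ne_zero h2 hc) (mul_ne_zero hw0 hw0)

theorem clso_polar_self {V : Type*} [AddCommGroup V] [Module F V] (Q : QuadraticForm F V) (t : V) :
    polar Q t t = 2 * Q t := by
  have h : Q (t + t) = 4 * Q t := by
    rw [← two_smul F t, QuadraticMap.map_smul, smul_eq_mul]
    ring
  rw [polar, h]
  ring

/-- CLSO. -/
theorem classify_odd [Fintype F] (h2 : (2 : F) ≠ 0) {V : Type*} [AddCommGroup V] [Module F V] [FiniteDimensional F V]
    (Q : QuadraticForm F V) (hQ : (polarBilin Q).Nondegenerate) (d : ℕ) (hV : Module.finrank F V = 2 * d + 1) :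
    ∃ (c : F) (φ : V ≃ₗ[F] (Unit ⊕ (Fin d ⊕ Fin d) → F)), ∀ v, Cfsg.quadFormOdd d F (φ v) = c * Q v := by
  have : Finite V := Module.finite_of_finite F
  have hc : Nat.card (⊤ : Submodule F V) = Fintype.card F ^ (2 * d + 1) := by rw [Quad.card_top_eq, hV]
  obtain ⟨x, hx⟩ := Quad.exists_frame_odd d ⊤ (Quad.nondeg_top hQ) hc
  set c₀ := Q (x.2 ()) with hc₀
  have hne : c₀ ≠ 0 := by
    intro h
    apply hx.2.2.2.2
    rw [clso_polar_self, ← hc₀, h, mul_zero]
  have hTl : Quad.Tl Q (clsoT c₀) x.2 := by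
    constructor
    · rintro ⟨⟩
      rw [clsoT_apply]
      simp [hc₀]
    · rintro ⟨⟩ ⟨⟩
      rw [clsoT_polar, clso_polar_self]
      simp [hc₀]
  have hfull : Quad.IsFull Q (Quad.Tl Q (clsoT c₀)) d ⊤ x :=
    ⟨hx.1, hx.2.1, hx.2.2.1, hx.2.2.2.1, hTl⟩
  obtain ⟨g, hg⟩ := Quad.iso_of_full (clsoT c₀) (clsoT_nondeg h2 c₀ hne) d ⊤ x hfull
    (by rw [hV]; simp)
  let a : (Fin d ⊕ Fin d) ⊕ Unit → F := Sum.elim (Sum.elim (fun _ => c₀⁻¹) (fun _ => 1)) (fun _ => 1)
  have ha : ∀ s, a s ≠ 0 := by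
    rintro ((i | i) | u)
    · exact inv_ne_zero hne
    · exact one_ne_zero
    · exact one_ne_zero
  let φ : V ≃ₗ[F] (Unit ⊕ (Fin d ⊕ Fin d) → F) :=
    g.trans ((LinearEquiv.piCongrRight (fun s => LinearEquiv.smulOfNeZero F F (a s) (ha s))).trans
      (LinearEquiv.funCongrLeft F F (Equiv.sumComm Unit (Fin d ⊕ Fin d))))
  refine ⟨c₀⁻¹, φ, fun v => ?_⟩
  have h1 : φ v (Sum.inl ()) = (1 : F) • g v (Sum.inr ()) := rfl
  have h3 : ∀ i, φ v (Sum.inr (Sum.inl i)) = c₀⁻¹ • g v (Sum.inl (Sum.inl i)) := fun i => rfl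
  have h4 : ∀ i, φ v (Sum.inr (Sum.inr i)) = (1 : F) • g v (Sum.inl (Sum.inr i)) := fun i => rfl
  rw [← hg v, Quad.Qgen_apply, clsoT_apply]
  unfold Cfsg.quadFormOdd
  simp only [h1, h3, h4, smul_eq_mul, one_mul]
  rw [mul_add, Finset.mul_sum]
  have h5 : c₀⁻¹ * (c₀ * (g v (Sum.inr ()) * g v (Sum.inr ()))) = g v (Sum.inr ()) ^ 2 := by
    field_simp
  rw [h5, add_comm]
  congr 1
  exact Finset.sum_congr rfl (fun i _ => by ring)

end Cfsg.Agent.Lib.Helper50.CC
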