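import Cfsg.Agent.Lib.Helper50.CC.Defs

set_option autoImplicit false

namespace Cfsg.Agent.Lib.Helper50.CC

open Polynomial Cfsg.Agent.Lib.Helper65.GR

/-- CNT1. -/
theorem card_lab_id {ι : Type*} [Fintype ι] (s : ι → ι) (hs : ∀ x, s x = x) (n i t : ℕ) (hi : 1 ≤ i)
    (ht : Fintype.card ι = t) :
    Nat.card {a : ι → ℕ // a ≠ 0 ∧ i * ∑ P, a P ≤ n ∧ ∀ P, a (s P) = a P} = Nat.choose (n / i + t) t - 1 := by
  rw [← card_labels (ι := ι) n i t hi ht]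
  apply Nat.card_congr
  apply Equiv.subtypeEquivRight
  intro a
  constructor
  · rintro ⟨h1, h2, -⟩; exact ⟨h1, h2⟩
  · rintro ⟨h1, h2⟩; exact ⟨h1, h2, fun P => by rw [hs]⟩

end Cfsg.Agent.Lib.Helper50.CC
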