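import Cfsg.Agent.Lib.Helper50.CC.Defs

set_option autoImplicit false

namespace Cfsg.Agent.Lib.Helper50.CC

open Polynomial Cfsg.Agent.Lib.Helper65.GR

/-- the orbit relation of an involution. -/
def cnt2Setoid {ι : Type*} (s : ι → ι) (hs : ∀ x, s (s x) = x) : Setoid ι where
  r x y := y = x ∨ y = s x
  iseqv :=
    { refl := fun x => Or.inl rfl
      symm := by
        rintro x y (h | h)
        · exact Or.inl h.symm
        · right; rw [h, hs]
      trans := by
        rintro x y z (h | h) (h' | h')
        · left; rw [h', h]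
        · right; rw [h', h]
        · right; rw [h', h]
        · left; rw [h', h, hs] }

theorem cnt2_sum {ι : Type*} [Fintype ι] (s : ι → ι) (hs : ∀ x, s (s x) = x) (hf : ∀ x, s x ≠ x)
    [Fintype (Quotient (cnt2Setoid s hs))] (b : Quotient (cnt2Setoid s hs) → ℕ) :
    ∑ x, b (Quotient.mk _ x) = 2 * ∑ k, b k := by
  classical
  rw [Finset.sum_comp b (fun x : ι => (Quotient.mk (cnt2Setoid s hs) x))]
  have himg : Finset.univ.image (fun x : ι => (Quotient.mk (cnt2Setoid s hs) x)) = Finset.univ := by
    apply Finset.eq_univ_of_forall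
    intro k
    induction k using Quotient.inductionOn with | _ x => ?_
    exact Finset.mem_image_of_mem _ (Finset.mem_univ x)
  rw [himg, Finset.mul_sum]
  apply Finset.sum_congr rfl
  intro k _
  induction k using Quotient.inductionOn with | _ x => ?_
  have : (Finset.univ.filter fun a : ι => (Quotient.mk (cnt2Setoid s hs) a) = Quotient.mk _ x) =
      {x, s x} := by
    ext a
    simp only [Finset.mem_filter, Finset.mem_univ, true_and, Finset.mem_insert,
      Finset.mem_singleton]
    constructor
    · intro h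
      have h1 : (cnt2Setoid s hs).r x a := (cnt2Setoid s hs).symm (Quotient.exact h)
      exact h1
    · intro h
      apply Quotient.sound
      have h1 : (cnt2Setoid s hs).r x a := h
      exact (cnt2Setoid s hs).symm h1
  rw [this, Finset.card_pair (hf x).symm, smul_eq_mul]

theorem cnt2_lift {ι : Type*} (s : ι → ι) (hs : ∀ x, s (s x) = x) (a : ι → ℕ)
    (ha : ∀ P, a (s P) = a P) :
    ∃ b : Quotient (cnt2Setoid s hs) → ℕ, ∀ x, b (Quotient.mk _ x) = a x := by
  refine ⟨Quotient.lift a ?_, fun x => rfl⟩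
  rintro x y (h | h)
  · rw [h]
  · rw [h, ha]

/-- CNT3. -/
theorem even_sum_of_free {ι : Type*} [Fintype ι] (s : ι → ι) (hs : ∀ x, s (s x) = x) (hf : ∀ x, s x ≠ x)
    (a : ι → ℕ) (ha : ∀ P, a (s P) = a P) : Even (∑ P, a P) := by
  classical
  obtain ⟨b, hb⟩ := cnt2_lift s hs a ha
  have := cnt2_sum s hs hf b
  simp only [hb] at this
  rw [this]
  exact even_two_mul _

/-- CNT2. -/
theorem card_lab_free {ι : Type*} [Fintype ι] (s : ι → ι) (hs : ∀ x, s (s x) = x) (hf : ∀ x, s x ≠ x)
    (n i t : ℕ) (hi : 1 ≤ i) (ht : Fintype.card ι = t) :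
    Nat.card {a : ι → ℕ // a ≠ 0 ∧ i * ∑ P, a P ≤ n ∧ ∀ P, a (s P) = a P} =
      Nat.choose (n / (2 * i) + t / 2) (t / 2) - 1 := by
  classical
  have hcard : Fintype.card (Quotient (cnt2Setoid s hs)) = t / 2 := by
    have := cnt2_sum s hs hf (fun _ => 1)
    simp only [Finset.sum_const, Finset.card_univ, smul_eq_mul, mul_one] at this
    omega
  rw [← card_labels (ι := Quotient (cnt2Setoid s hs)) n (2 * i) (t / 2) (by omega) hcard]
  symm
  apply Nat.card_congr
  refine Equiv.ofBijective (fun b => ⟨fun x => b.1 (Quotient.mk _ x), ?_, ?_, ?_⟩) ⟨?_, ?_⟩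
  · intro h0
    apply b.2.1
    funext k
    induction k using Quotient.inductionOn with | _ x => ?_
    exact congrFun h0 x
  · rw [cnt2_sum s hs hf b.1]
    have := b.2.2
    calc i * (2 * ∑ k, b.1 k) = 2 * i * ∑ k, b.1 k := by ring
      _ ≤ n := this
  · intro P
    have : (Quotient.mk (cnt2Setoid s hs) (s P)) = Quotient.mk _ P := by
      apply Quotient.sound
      show (cnt2Setoid s hs).r (s P) P
      right; rw [hs]
    show b.1 (Quotient.mk _ (s P)) = b.1 (Quotient.mk _ P)
    rw [this]
  · intro b b' h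
    apply Subtype.ext
    funext k
    induction k using Quotient.inductionOn with | _ x => ?_
    exact congrFun (congrArg Subtype.val h) x
  · rintro ⟨a, ha0, ha1, ha2⟩
    obtain ⟨b, hb⟩ := cnt2_lift s hs a ha2
    have hab : (fun x => b (Quotient.mk _ x)) = a := funext hb
    refine ⟨⟨b, ?_, ?_⟩, Subtype.ext hab⟩
    · rintro rfl
      apply ha0
      rw [← hab]; rfl
    · have h1 := cnt2_sum s hs hf b
      simp only [hb] at h1
      rw [h1] at ha1
      calc 2 * i * ∑ k, b k = i * (2 * ∑ k, b k) := by ring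
        _ ≤ n := ha1

end Cfsg.Agent.Lib.Helper50.CC
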