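import Cfsg.Agent.Lib.Helper50.CC.Defs

set_option autoImplicit false

namespace Cfsg.Agent.Lib.Helper50.CC

open Polynomial Cfsg.Agent.Lib.Helper65.GR

/-- stars and bars -/
theorem cnt4_eq {ι : Type*} [Fintype ι] (N t : ℕ) (ht : Fintype.card ι = t) (ht1 : 1 ≤ t) :
    Nat.card {a : ι → ℕ // ∑ P, a P = N} = Nat.choose (N + t - 1) (t - 1) := by
  classical
  rw [← Nat.card_congr (Sym.equivNatSumOfFintype ι N), Nat.card_eq_fintype_card, Sym.card_sym_eq_choose, ht]
  have : t + N - 1 = N + (t - 1) := by omega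
  rw [this, Nat.choose_symm_add]
  congr 1
  omega

/-- CNT4. -/
theorem card_lab_id_excl {ι : Type*} [Fintype ι] (s : ι → ι) (hs : ∀ x, s x = x) (n i t : ℕ) (hi : 1 ≤ i)
    (ht : Fintype.card ι = t) (ht1 : 1 ≤ t) (hn : 0 < n) (par : ℕ → Prop) [DecidablePred par] :
    Nat.card {a : ι → ℕ // a ≠ 0 ∧ i * ∑ P, a P ≤ n ∧ (∀ P, a (s P) = a P) ∧ ¬ (i * ∑ P, a P = n ∧ par (∑ P, a P))} =
      Nat.choose (n / i + t) t - 1 - (if i ∣ n ∧ par (n / i) then Nat.choose (n / i + t - 1) (t - 1) else 0) := by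
  classical
  have hfinB : Finite {a : ι → ℕ // ∑ P, a P ≤ n / i} := by
    apply Nat.finite_of_card_ne_zero
    rw [cmb_le (ι := ι) (n / i) t ht]
    exact (Nat.choose_pos (Nat.le_add_left _ _)).ne'
  let A := {a : ι → ℕ // a ≠ 0 ∧ i * ∑ P, a P ≤ n}
  have hfinA : Finite A :=
    Finite.of_injective (fun a : A => (⟨a.1, by
      rw [Nat.le_div_iff_mul_le hi, mul_comm]; exact a.2.2⟩ : {a : ι → ℕ // ∑ P, a P ≤ n / i}))
      (fun a b h => Subtype.ext (by simpa using h))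
  let E : (ι → ℕ) → Prop := fun a => i * ∑ P, a P = n ∧ par (∑ P, a P)
  have h0 : Nat.card A = Nat.choose (n / i + t) t - 1 := card_labels (ι := ι) n i t hi ht
  have h1 : Nat.card A = Nat.card {x : A // E x.1} + Nat.card {x : A // ¬ E x.1} := by
    rw [← Nat.card_sum]
    exact Nat.card_congr (Equiv.sumCompl (fun x : A => E x.1)).symm
  have h2 : Nat.card {x : A // ¬ E x.1} = Nat.card {a : ι → ℕ // a ≠ 0 ∧ i * ∑ P, a P ≤ n ∧
      (∀ P, a (s P) = a P) ∧ ¬ (i * ∑ P, a P = n ∧ par (∑ P, a P))} := by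
    apply Nat.card_congr
    exact ⟨fun x => ⟨x.1.1, x.1.2.1, x.1.2.2, fun P => by rw [hs], x.2⟩,
      fun a => ⟨⟨a.1, a.2.1, a.2.2.1⟩, a.2.2.2.2⟩, fun x => rfl, fun a => rfl⟩
  have h3 : Nat.card {x : A // E x.1} =
      if i ∣ n ∧ par (n / i) then Nat.choose (n / i + t - 1) (t - 1) else 0 := by
    split_ifs with hc
    · obtain ⟨hd, hp⟩ := hc
      rw [← cnt4_eq (ι := ι) (n / i) t ht ht1]
      apply Nat.card_congr
      refine ⟨fun x => ⟨x.1.1, ?_⟩, fun a => ⟨⟨a.1, ?_, ?_⟩, ?_, ?_⟩, fun x => rfl, fun a => rfl⟩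
      · have := x.2.1
        exact (Nat.div_eq_of_eq_mul_right hi this.symm).symm
      · intro h0
        have := a.2
        rw [h0] at this
        simp only [Pi.zero_apply, Finset.sum_const_zero] at this
        have h5 := Nat.mul_div_cancel' hd
        rw [← this] at h5
        omega
      · rw [a.2, Nat.mul_div_cancel' hd]
      · show i * ∑ P, a.1 P = n
        rw [a.2, Nat.mul_div_cancel' hd]
      · show par (∑ P, a.1 P)
        rw [a.2]; exact hp
    · rw [Nat.card_eq_zero]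
      left
      refine ⟨fun x => hc ?_⟩
      have h5 := x.2.1
      have h6 : n / i = ∑ P, x.1.1 P := Nat.div_eq_of_eq_mul_right hi h5.symm
      exact ⟨⟨_, h5.symm⟩, by rw [h6]; exact x.2.2⟩
  rw [← h2, ← h0, ← h3, h1]
  omega

end Cfsg.Agent.Lib.Helper50.CC
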