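import Cfsg.Agent.Lib.Helper50.CC.Defs
import Cfsg.Agent.Lib.Helper50.CC.CNT2
import Cfsg.Agent.Lib.Helper50.CC.CNT4

/-! Ladder CC, rung CNT5. -/

set_option autoImplicit false

namespace Cfsg.Agent.Lib.Helper50.CC

open Polynomial Cfsg.Agent.Lib.Helper65.GR

/-- CNT5. -/
theorem card_lab_free_excl {ι : Type*} [Fintype ι] (s : ι → ι) (hs : ∀ x, s (s x) = x) (hf : ∀ x, s x ≠ x)
    (n i t : ℕ) (hi : 1 ≤ i) (ht : Fintype.card ι = t) (ht1 : 1 ≤ t) (hn : 0 < n) :
    Nat.card {a : ι → ℕ // a ≠ 0 ∧ i * ∑ P, a P ≤ n ∧ (∀ P, a (s P) = a P) ∧ i * ∑ P, a P ≠ n} =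
      Nat.choose (n / (2 * i) + t / 2) (t / 2) - 1 -
        (if 2 * i ∣ n then Nat.choose (n / (2 * i) + t / 2 - 1) (t / 2 - 1) else 0) := by
  classical
  have hcard2 : t = 2 * Fintype.card (Quotient (cnt2Setoid s hs)) := by
    have := cnt2_sum s hs hf (fun _ => 1)
    simp only [Finset.sum_const, Finset.card_univ, smul_eq_mul, mul_one] at this
    omega
  have hcard : Fintype.card (Quotient (cnt2Setoid s hs)) = t / 2 := by omega
  have key := card_lab_id_excl (ι := Quotient (cnt2Setoid s hs)) id (fun _ => rfl) n (2 * i) (t / 2)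
    (by omega) hcard (by omega) hn (fun _ => True)
  simp only [and_true] at key
  rw [← key]
  symm
  apply Nat.card_congr
  refine Equiv.ofBijective (fun b => ⟨fun x => b.1 (Quotient.mk _ x), ?_, ?_, ?_, ?_⟩) ⟨?_, ?_⟩
  · intro h0
    apply b.2.1
    funext k
    induction k using Quotient.inductionOn with | _ x => ?_
    exact congrFun h0 x
  · rw [cnt2_sum s hs hf b.1]
    have := b.2.2.1
    calc i * (2 * ∑ k, b.1 k) = 2 * i * ∑ k, b.1 k := by ring
      _ ≤ n := this
  · intro P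
    have : (Quotient.mk (cnt2Setoid s hs) (s P)) = Quotient.mk _ P := by
      apply Quotient.sound
      show (cnt2Setoid s hs).r (s P) P
      right; rw [hs]
    show b.1 (Quotient.mk _ (s P)) = b.1 (Quotient.mk _ P)
    rw [this]
  · rw [cnt2_sum s hs hf b.1]
    intro h
    apply b.2.2.2.2
    calc 2 * i * ∑ k, b.1 k = i * (2 * ∑ k, b.1 k) := by ring
      _ = n := h
  · intro b b' h
    apply Subtype.ext
    funext k
    induction k using Quotient.inductionOn with | _ x => ?_
    exact congrFun (congrArg Subtype.val h) x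
  · rintro ⟨a, ha0, ha1, ha2, ha3⟩
    obtain ⟨b, hb⟩ := cnt2_lift s hs a ha2
    have hab : (fun x => b (Quotient.mk _ x)) = a := funext hb
    have h1 := cnt2_sum s hs hf b
    simp only [hb] at h1
    refine ⟨⟨b, ?_, ?_, fun _ => rfl, ?_⟩, Subtype.ext hab⟩
    · rintro rfl
      apply ha0
      rw [← hab]; rfl
    · rw [h1] at ha1
      calc 2 * i * ∑ k, b k = i * (2 * ∑ k, b k) := by ring
        _ ≤ n := ha1
    · intro h
      apply ha3
      rw [h1]
      calc i * (2 * ∑ k, b k) = 2 * i * ∑ k, b k := by ring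
        _ = n := h

end Cfsg.Agent.Lib.Helper50.CC
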