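import Cfsg.Agent.Lib.Helper65.GR.FAC
import Cfsg.Agent.Lib.Helper65.GR.CMB
import Cfsg.Agent.Lib.Helper65.GR.CNT
import Cfsg.Agent.Lib.Helper65.GR.NE

/-!
# Ladder CC: classes of elements of odd prime order in `Sp`, `GU`, `O`.  Definitions.
-/

set_option autoImplicit false

namespace Cfsg.Agent.Lib.Helper50.CC

open Polynomial Cfsg.Agent.Lib.Helper65.GR

variable {F : Type*} [Field F]

/-- the `σ`-twisted monic reverse of a polynomial (with non-zero constant coefficient) -/
noncomputable def tw (σ : F →+* F) (f : F[X]) : F[X] :=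
  C ((f.map σ).coeff 0)⁻¹ * (f.map σ).reverse

open Classical in
/-- the permutation induced by `tw σ` on the irreducible factors of the cyclotomic polynomial -/
noncomputable def st (σ : F →+* F) (r : ℕ) (P : irr F r) : irr F r :=
  if h : tw σ (P : F[X]) ∈ irr F r then ⟨tw σ P, h⟩ else P

end Cfsg.Agent.Lib.Helper50.CC
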