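import Cfsg.Agent.Lib.Helper50.CC.Defs

/-!
# Ladder CC, part 3: orthogonal sums of quadratic forms on function spaces
-/

set_option autoImplicit false

namespace Cfsg.Agent.Lib.Helper50.CC

variable {F : Type*} [Field F]

/-- the orthogonal sum of two quadratic forms -/
noncomputable def osum {α β : Type*} (Q₁ : QuadraticForm F (α → F)) (Q₂ : QuadraticForm F (β → F)) :
    QuadraticForm F (α ⊕ β → F) :=
  Q₁.comp (LinearMap.funLeft F F Sum.inl) + Q₂.comp (LinearMap.funLeft F F Sum.inr)

theorem osum_apply {α β : Type*} (Q₁ : QuadraticForm F (α → F)) (Q₂ : QuadraticForm F (β → F))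
    (v : α ⊕ β → F) : osum Q₁ Q₂ v = Q₁ (fun x => v (Sum.inl x)) + Q₂ (fun y => v (Sum.inr y)) := rfl

end Cfsg.Agent.Lib.Helper50.CC
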