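import Cfsg.Agent.Lib.Helper50.CC.Defs2
import Cfsg.Agent.Lib.Helper50.QuadIso

/-! Ladder CC, rung N0M: number of singular vectors of the minus-type form. -/

set_option autoImplicit false

namespace Cfsg.Agent.Lib.Helper50.CC

open QuadraticMap

variable {F : Type*} [Field F]

theorem n0m_eq (a' c' : F) (d : ℕ) (v : (Fin d ⊕ Fin d) ⊕ Fin 2 → F) :
    Cfsg.quadFormMinus d F a' c' v = Quad.Qgen d (Quad.T2 1 a' c') v := by
  rw [Quad.Qgen_apply, Quad.T2_apply, one_mul]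
  rfl

/-- N0M. -/
theorem N0_minus [Fintype F] (a' c' : F)
    (hac : ∀ z₁ z₂ : F, z₁ ^ 2 + a' * z₁ * z₂ + c' * z₂ ^ 2 = 0 → z₁ = 0 ∧ z₂ = 0) (d : ℕ) :
    (Fintype.card F : ℤ) * (Nat.card {v : (Fin d ⊕ Fin d) ⊕ Fin 2 → F // Cfsg.quadFormMinus d F a' c' v = 0} : ℤ) =
      (Fintype.card F : ℤ) ^ (2 * (d + 1)) + (-1) * (Fintype.card F : ℤ) ^ (d + 1) * ((Fintype.card F : ℤ) - 1) := by
  have h := Quad.card_sing_minus a' c' hac d
  simp only [n0m_eq]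
  have h' : ((Nat.card {v : (Fin d ⊕ Fin d) ⊕ Fin 2 → F // Quad.Qgen d (Quad.T2 1 a' c') v = 0} : ℕ) : ℤ) +
      (Fintype.card F : ℤ) ^ (d + 1) = (Fintype.card F : ℤ) ^ (2 * d + 1) + (Fintype.card F : ℤ) ^ d := by
    exact_mod_cast h
  linear_combination (Fintype.card F : ℤ) * h'

end Cfsg.Agent.Lib.Helper50.CC
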