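import Cfsg.Agent.Lib.Helper50.CC.Defs2
import Cfsg.Agent.Lib.Helper50.QuadIso

/-! Ladder CC, rung N0P: number of singular vectors of the plus-type form. -/

set_option autoImplicit false

namespace Cfsg.Agent.Lib.Helper50.CC

open QuadraticMap

variable {F : Type*} [Field F]

theorem n0p_eq (m : ℕ) (x : (Fin m ⊕ Fin m) ⊕ Empty → F) :
    Cfsg.quadFormPlus m F (fun s => x (Sum.inl s)) = Quad.Qgen m (Quad.T0 F) x := by
  rw [Quad.Qgen_apply]
  simp [Cfsg.quadFormPlus]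

/-- restriction along `Sum.inl` -/
def n0pEquiv (m : ℕ) : ((Fin m ⊕ Fin m) ⊕ Empty → F) ≃ (Fin m ⊕ Fin m → F) :=
  Equiv.arrowCongr (Equiv.sumEmpty (Fin m ⊕ Fin m) Empty) (Equiv.refl F)

theorem n0pEquiv_apply (m : ℕ) (x : (Fin m ⊕ Fin m) ⊕ Empty → F) :
    n0pEquiv m x = fun s => x (Sum.inl s) := rfl

/-- N0P. -/
theorem N0_plus [Fintype F] (m : ℕ) :
    (Fintype.card F : ℤ) * (Nat.card {v : Fin m ⊕ Fin m → F // Cfsg.quadFormPlus m F v = 0} : ℤ) =
      (Fintype.card F : ℤ) ^ (2 * m) + 1 * (Fintype.card F : ℤ) ^ m * ((Fintype.card F : ℤ) - 1) := by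
  rcases m with _ | d
  · have : Nat.card {v : Fin 0 ⊕ Fin 0 → F // Cfsg.quadFormPlus 0 F v = 0} = 1 := by
      rw [Nat.card_eq_one_iff_unique]
      refine ⟨⟨fun a b => Subtype.ext (funext fun s => ?_)⟩, ⟨⟨0, by simp [Cfsg.quadFormPlus]⟩⟩⟩
      rcases s with s | s <;> exact s.elim0
    rw [this]
    simp
  · have h := Quad.card_sing_plus (F := F) d
    have e : Nat.card {v : Fin (d + 1) ⊕ Fin (d + 1) → F // Cfsg.quadFormPlus (d + 1) F v = 0} =
        Nat.card {v : (Fin (d + 1) ⊕ Fin (d + 1)) ⊕ Empty → F // Quad.Qgen (d + 1) (Quad.T0 F) v = 0} := by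
      symm
      apply Nat.card_congr
      refine (n0pEquiv (F := F) (d + 1)).subtypeEquiv (fun x => ?_)
      rw [n0pEquiv_apply, n0p_eq]
    rw [e]
    have h' : ((Nat.card {v : (Fin (d + 1) ⊕ Fin (d + 1)) ⊕ Empty → F //
        Quad.Qgen (d + 1) (Quad.T0 F) v = 0} : ℕ) : ℤ) + (Fintype.card F : ℤ) ^ d =
        (Fintype.card F : ℤ) ^ (2 * d + 1) + (Fintype.card F : ℤ) ^ (d + 1) := by
      exact_mod_cast h
    linear_combination (Fintype.card F : ℤ) * h'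

end Cfsg.Agent.Lib.Helper50.CC
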