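import Mathlib

set_option autoImplicit false

namespace Cfsg.Agent.Lib.Helper50.CC

/-- FIX. -/
theorem fix_congr {V : Type*} [Finite V] (r : ℕ) (hr : r.Prime) (f : Equiv.Perm V) (hf : f ^ r = 1) (Pd : V → Prop)
    (hP : ∀ v, Pd (f v) ↔ Pd v) :
    Nat.card {v // Pd v} ≡ Nat.card {v // Pd v ∧ f v = v} [MOD r] := by
  classical
  haveI : Fact r.Prime := ⟨hr⟩
  haveI := Fintype.ofFinite V
  let g : Function.End {v // Pd v} := fun v => ⟨f v.1, (hP v.1).2 v.2⟩
  have hgk : ∀ (k : ℕ) (v : {v // Pd v}), ((g ^ k) v).1 = (f ^ k) v.1 := by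
    intro k
    induction k with
    | zero => intro v; rfl
    | succ k ih =>
      intro v
      rw [pow_succ, pow_succ]
      change ((g ^ k) (g v)).1 = (f ^ k) (f v.1)
      rw [ih]
  have hg : g ^ r ^ 1 = 1 := by
    funext v
    apply Subtype.ext
    rw [pow_one, hgk, hf]
    rfl
  have h := Equiv.Perm.card_fixedPoints_modEq (f := g) (p := r) (n := 1) hg
  rw [Nat.card_eq_fintype_card, Nat.card_eq_fintype_card]
  refine h.trans ?_
  apply congrArg (· % r)
  apply Fintype.card_congr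
  refine ⟨fun v => ⟨v.1.1, v.1.2, congrArg Subtype.val v.2⟩,
    fun v => ⟨⟨v.1, v.2.1⟩, Subtype.ext v.2.2⟩, fun v => rfl, fun v => rfl⟩

end Cfsg.Agent.Lib.Helper50.CC
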