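import Mathlib

set_option autoImplicit false

namespace Cfsg.Agent.Lib.Helper50.CC

/-- SGN. -/
theorem sign_arith (q r i A d₁ m : ℕ) (hr : r.Prime) (hr2 : r ≠ 2) (hi : i = orderOf (q : ZMod r)) (hev : Even i)
    (hi0 : 0 < i) (hm : m = d₁ + i / 2 * A) (ε' ε₁ : ℤ) (hε' : ε' = 1 ∨ ε' = -1) (hε₁ : ε₁ = 1 ∨ ε₁ = -1)
    (N N₁ : ℕ) (hN : (q : ℤ) * (N : ℤ) = (q : ℤ) ^ (2 * m) + ε' * (q : ℤ) ^ m * ((q : ℤ) - 1))
    (hN₁ : (q : ℤ) * (N₁ : ℤ) = (q : ℤ) ^ (2 * d₁) + ε₁ * (q : ℤ) ^ d₁ * ((q : ℤ) - 1))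
    (hcong : N ≡ N₁ [MOD r]) : ε' = ε₁ * (-1) ^ A := by
  haveI : Fact r.Prime := ⟨hr⟩
  set x : ZMod r := (q : ZMod r) with hx
  obtain ⟨j, hj⟩ := hev
  have hj0 : 0 < j := by omega
  have hi2 : i / 2 = j := by omega
  have hxi : x ^ i = 1 := by rw [hi]; exact pow_orderOf_eq_one x
  have hx0 : x ≠ 0 := by
    intro h
    rw [h, zero_pow (by omega)] at hxi
    exact zero_ne_one hxi
  have hx1 : x - 1 ≠ 0 := by
    intro h
    have h1 : x = 1 := sub_eq_zero.mp h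
    rw [h1, orderOf_one] at hi
    omega
  have hxj : x ^ j = -1 := by
    have hsq : (x ^ j - 1) * (x ^ j + 1) = 0 := by
      have : x ^ j * x ^ j = 1 := by rw [← pow_add, ← hj, hxi]
      linear_combination this
    rcases mul_eq_zero.mp hsq with h | h
    · exfalso
      have h1 : x ^ j = 1 := sub_eq_zero.mp h
      have := orderOf_dvd_of_pow_eq_one h1
      rw [← hi] at this
      have := Nat.le_of_dvd hj0 this
      omega
    · exact eq_neg_of_add_eq_zero_left h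
  have hxm : x ^ m = x ^ d₁ * (-1) ^ A := by
    rw [hm, hi2, pow_add, pow_mul, hxj]
  have hx2m : x ^ (2 * m) = x ^ (2 * d₁) := by
    rw [mul_comm 2 m, pow_mul, hxm, mul_pow, ← pow_mul, ← pow_mul, mul_comm A 2, pow_mul (-1 : ZMod r) 2 A]
    simp [mul_comm]
  have hNN : (N : ZMod r) = (N₁ : ZMod r) := (ZMod.natCast_eq_natCast_iff _ _ _).2 hcong
  have e1 : x * (N : ZMod r) = x ^ (2 * m) + (ε' : ZMod r) * x ^ m * (x - 1) := by
    have := congrArg (Int.cast : ℤ → ZMod r) hN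
    push_cast at this
    exact this
  have e2 : x * (N₁ : ZMod r) = x ^ (2 * d₁) + (ε₁ : ZMod r) * x ^ d₁ * (x - 1) := by
    have := congrArg (Int.cast : ℤ → ZMod r) hN₁
    push_cast at this
    exact this
  have e3 : ((ε' : ZMod r) * (-1) ^ A - (ε₁ : ZMod r)) * (x ^ d₁ * (x - 1)) = 0 := by
    rw [hNN, e2, hx2m, hxm] at e1
    linear_combination -e1
  have e4 : (ε' : ZMod r) * (-1) ^ A = (ε₁ : ZMod r) := by
    rcases mul_eq_zero.mp e3 with h | h
    · exact sub_eq_zero.mp h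
    · exact absurd h (mul_ne_zero (pow_ne_zero _ hx0) hx1)
  have h11 : (1 : ZMod r) ≠ -1 := by
    intro h
    have h2 : ((2 : ℕ) : ZMod r) = 0 := by
      push_cast
      linear_combination h
    rw [ZMod.natCast_eq_zero_iff] at h2
    exact hr2 ((Nat.prime_dvd_prime_iff_eq hr Nat.prime_two).1 h2)
  clear hN hN₁ e1 e2 e3 hNN hxm hx2m hcong
  rcases Nat.even_or_odd A with hA' | hA'
  · rw [hA'.neg_one_pow] at e4 ⊢
    rcases hε' with rfl | rfl <;> rcases hε₁ with rfl | rfl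
    · rfl
    · exfalso; apply h11; simpa using e4
    · exfalso; apply h11; simpa using e4.symm
    · rfl
  · rw [hA'.neg_one_pow] at e4 ⊢
    rcases hε' with rfl | rfl <;> rcases hε₁ with rfl | rfl
    · exfalso; apply h11; simpa using e4.symm
    · rfl
    · rfl
    · exfalso; apply h11; simpa using e4

end Cfsg.Agent.Lib.Helper50.CC
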