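import Cfsg.Agent.Lib.Helper50.CC.Defs2
import Cfsg.Prelude.Def_Classical
import Cfsg.Agent.Lib.Helper50.CC.FIX
import Cfsg.Agent.Lib.Helper50.CC.FIXV
import Cfsg.Agent.Lib.Helper50.CC.SGN

set_option autoImplicit false

namespace Cfsg.Agent.Lib.Helper50.CC

open Polynomial Cfsg.Agent.Lib.Helper65.GR Matrix

variable {F : Type*} [Field F]

/-- the permutation of the vectors induced by an invertible matrix -/
noncomputable def nevPerm {ι : Type*} [Fintype ι] [DecidableEq ι] :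
    Matrix.GeneralLinearGroup ι F →* Equiv.Perm (ι → F) where
  toFun g := ⟨fun v => (g : Matrix ι ι F) *ᵥ v, fun v => ((g⁻¹ : Matrix.GeneralLinearGroup ι F) : Matrix ι ι F) *ᵥ v,
    fun v => by
      beta_reduce; rw [Matrix.mulVec_mulVec, ← Units.val_mul, inv_mul_cancel]; simp,
    fun v => by
      beta_reduce; rw [Matrix.mulVec_mulVec, ← Units.val_mul, mul_inv_cancel]; simp⟩
  map_one' := by ext v; simp
  map_mul' g h := by
    ext v
    simp [Matrix.mulVec_mulVec]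

theorem nevPerm_apply {ι : Type*} [Fintype ι] [DecidableEq ι] (g : Matrix.GeneralLinearGroup ι F) (v : ι → F) :
    nevPerm g v = (g : Matrix ι ι F) *ᵥ v := rfl

/-- NEV. -/
theorem parity_full [Fintype F] (r i m : ℕ) (hr : r.Prime) (hr2 : r ≠ 2) (hrF : (r : F) ≠ 0)
    (hi : i = orderOf ((Fintype.card F : ℕ) : ZMod r)) (hev : Even i) (hi0 : 0 < i)
    {ι : Type} [Fintype ι] [DecidableEq ι] (Q₀ : (ι → F) → F) (h00 : Q₀ 0 = 0) (ε : ℤ) (hε : ε = 1 ∨ ε = -1)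
    (hN : (Fintype.card F : ℤ) * (Nat.card {v : ι → F // Q₀ v = 0} : ℤ) =
      (Fintype.card F : ℤ) ^ (2 * m) + ε * (Fintype.card F : ℤ) ^ m * ((Fintype.card F : ℤ) - 1))
    (a : irr F r → ℕ) (hfull : i * ∑ P, a P = 2 * m) (g : ↥(Cfsg.isometryGroup F Q₀)) (hg : orderOf g = r)
    (hc : (g.1.1 : Matrix ι ι F).charpoly = cp F r (2 * m) i a) : ε = (-1) ^ (∑ P, a P) := by
  have hfr : (nevPerm g.1 : Equiv.Perm (ι → F)) ^ r = 1 := by
    rw [← map_pow, ← Subgroup.coe_pow, ← hg, pow_orderOf_eq_one]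
    simp
  have hcong := fix_congr r hr (nevPerm g.1) hfr (fun v => Q₀ v = 0) (fun v => by
    rw [nevPerm_apply]
    have : Q₀ ((g.1 : Matrix ι ι F) *ᵥ v) = Q₀ v := g.2 v v
    rw [this])
  have hone : Nat.card {v : ι → F // Q₀ v = 0 ∧ nevPerm g.1 v = v} = 1 := by
    rw [Nat.card_eq_one_iff_unique]
    refine ⟨⟨fun x y => ?_⟩, ⟨⟨0, h00, by rw [nevPerm_apply]; simp⟩⟩⟩
    apply Subtype.ext
    rw [no_fixed r (2 * m) i hr hrF a hfull _ hc x.1 x.2.2, no_fixed r (2 * m) i hr hrF a hfull _ hc y.1 y.2.2]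
  rw [hone] at hcong
  obtain ⟨j, hj⟩ := hev
  have hm : m = 0 + i / 2 * ∑ P, a P := by
    have : i / 2 = j := by omega
    rw [this, zero_add]
    rw [hj] at hfull
    have : 2 * (j * ∑ P, a P) = 2 * m := by rw [← hfull]; ring
    omega
  have := sign_arith (Fintype.card F) r i (∑ P, a P) 0 m hr hr2 hi ⟨j, hj⟩ hi0 hm ε 1 hε (Or.inl rfl)
    _ 1 hN (by ring) hcong
  rw [this, one_mul]

end Cfsg.Agent.Lib.Helper50.CC
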