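import Mathlib
import Cfsg.Prelude.Def_Classical

set_option autoImplicit false

namespace Cfsg.Agent.Lib.Helper50.CC

open Polynomial Matrix

variable {F : Type*} [Field F]

/-- conjugation of matrices by a linear equivalence of function spaces. -/
noncomputable def trpPsi {ι ι' : Type} [Fintype ι] [DecidableEq ι] [Fintype ι'] [DecidableEq ι']
    (φ : (ι' → F) ≃ₗ[F] (ι → F)) : Matrix ι' ι' F ≃+* Matrix ι ι F :=
  ((Matrix.toLinAlgEquiv' (R := F) (n := ι')).toRingEquiv.trans φ.conjRingEquiv).trans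
    (Matrix.toLinAlgEquiv' (R := F) (n := ι)).toRingEquiv.symm

theorem trpPsi_toLin {ι ι' : Type} [Fintype ι] [DecidableEq ι] [Fintype ι'] [DecidableEq ι']
    (φ : (ι' → F) ≃ₗ[F] (ι → F)) (M : Matrix ι' ι' F) :
    Matrix.toLin' (trpPsi φ M) = φ.conj (Matrix.toLin' M) := by
  have h : trpPsi φ M = LinearMap.toMatrix' (φ.conj (Matrix.toLin' M)) := rfl
  rw [h, Matrix.toLin'_toMatrix']

theorem trpPsi_mulVec {ι ι' : Type} [Fintype ι] [DecidableEq ι] [Fintype ι'] [DecidableEq ι']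
    (φ : (ι' → F) ≃ₗ[F] (ι → F)) (M : Matrix ι' ι' F) (w : ι → F) :
    trpPsi φ M *ᵥ w = φ (M *ᵥ φ.symm w) := by
  rw [← Matrix.toLin'_apply, trpPsi_toLin, LinearEquiv.conj_apply_apply, Matrix.toLin'_apply]

theorem trpPsi_charpoly {ι ι' : Type} [Fintype ι] [DecidableEq ι] [Fintype ι'] [DecidableEq ι']
    (φ : (ι' → F) ≃ₗ[F] (ι → F)) (M : Matrix ι' ι' F) :
    (trpPsi φ M).charpoly = M.charpoly := by
  rw [← Matrix.charpoly_toLin', trpPsi_toLin, LinearEquiv.charpoly_conj, Matrix.charpoly_toLin']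

/-- TRP. -/
theorem transport {ι ι' : Type} [Fintype ι] [DecidableEq ι] [Fintype ι'] [DecidableEq ι'] (Q₀ : (ι → F) → F)
    (Q : (ι' → F) → F) (c : F) (φ : (ι' → F) ≃ₗ[F] (ι → F)) (hφ : ∀ v, Q₀ (φ v) = c * Q v)
    (M : Matrix.GeneralLinearGroup ι' F) (hM : ∀ v, Q ((M : Matrix ι' ι' F) *ᵥ v) = Q v) :
    ∃ g : ↥(Cfsg.isometryGroup F Q₀), orderOf g = orderOf M ∧
      (g.1.1 : Matrix ι ι F).charpoly = (M : Matrix ι' ι' F).charpoly := by
  have hinj : Function.Injective (Units.map ((trpPsi φ : Matrix ι' ι' F ≃+* Matrix ι ι F) :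
      Matrix ι' ι' F →* Matrix ι ι F)) :=
    Units.map_injective (trpPsi φ).injective
  refine ⟨⟨Units.map ((trpPsi φ : Matrix ι' ι' F ≃+* Matrix ι ι F) :
      Matrix ι' ι' F →* Matrix ι ι F) M, ?_⟩, ?_, ?_⟩
  · intro u _
    show Q₀ (trpPsi φ M.1 *ᵥ u) = Q₀ u
    rw [trpPsi_mulVec, hφ, hM, ← hφ, LinearEquiv.apply_symm_apply]
  · rw [← Subgroup.orderOf_coe]
    exact orderOf_injective _ hinj M
  · exact trpPsi_charpoly φ M.1

end Cfsg.Agent.Lib.Helper50.CC
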