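import Cfsg.Agent.Lib.Helper50.CC.Defs2
import Cfsg.Prelude.Def_Classical
import Cfsg.Agent.Lib.Helper50.CC.BUILD
import Cfsg.Agent.Lib.Helper50.CC.CLSE
import Cfsg.Agent.Lib.Helper50.CC.TRP
import Cfsg.Agent.Lib.Helper50.CC.NEV
import Cfsg.Agent.Lib.Helper50.CC.N0P
import Cfsg.Agent.Lib.Helper50.CC.N0M

/-! Ladder CC, rung EEV. -/

set_option autoImplicit false

namespace Cfsg.Agent.Lib.Helper50.CC

open Polynomial Cfsg.Agent.Lib.Helper65.GR QuadraticMap Matrix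

variable {F : Type*} [Field F]

/-- EEV. -/
theorem exists_even_dim [Fintype F] (p : ℕ) [Fact p.Prime] [CharP F p] (r i : ℕ) (hr : r.Prime) (hr2 : r ≠ 2)
    (hrp : r ≠ p) (hi : i = orderOf ((Fintype.card F : ℕ) : ZMod r)) (hev : Even i) (hi0 : 0 < i)
    (hdeg : ∀ P ∈ irr F r, P.natDegree = i) (a' c' : F)
    (hac : ∀ z₁ z₂ : F, z₁ ^ 2 + a' * z₁ * z₂ + c' * z₂ ^ 2 = 0 → z₁ = 0 ∧ z₂ = 0)
    (a : irr F r → ℕ) (ha0 : a ≠ 0) (hsym : ∀ P, a (st (RingHom.id F) r P) = a P) (k d₁ d : ℕ)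
    (hk : i * ∑ P, a P = 2 * k) (hd : d + 1 = k + d₁)
    {ι₁ : Type} [Fintype ι₁] [DecidableEq ι₁] (Q₁ : QuadraticForm F (ι₁ → F))
    (hQ₁ : (polarBilin Q₁).Nondegenerate) (hcard : Fintype.card ι₁ = 2 * d₁) (ε₁ : ℤ) (hε₁ : ε₁ = 1 ∨ ε₁ = -1)
    (hN₁ : (Fintype.card F : ℤ) * (Nat.card {y : ι₁ → F // Q₁ y = 0} : ℤ) =
      (Fintype.card F : ℤ) ^ (2 * d₁) + ε₁ * (Fintype.card F : ℤ) ^ d₁ * ((Fintype.card F : ℤ) - 1)) :
    (ε₁ * (-1) ^ (∑ P, a P) = 1 → ∃ g : ↥(Cfsg.isometryGroup F (Cfsg.quadFormPlus (d + 1) F)), orderOf g = r ∧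
      (g.1.1 : Matrix _ _ F).charpoly = cp F r (2 * (d + 1)) i a) ∧
    (ε₁ * (-1) ^ (∑ P, a P) = -1 → ∃ g : ↥(Cfsg.isometryGroup F (Cfsg.quadFormMinus d F a' c')), orderOf g = r ∧
      (g.1.1 : Matrix _ _ F).charpoly = cp F r (2 * (d + 1)) i a) := by
  obtain ⟨Q, M, hQnd, hQM, hMord, hMcp, hfixcard⟩ :=
    build p r i k hr hr2 hrp hi0 hdeg a ha0 hk hsym Q₁ hQ₁
  have hfr : (nevPerm M : Equiv.Perm _) ^ r = 1 := by
    rw [← map_pow, ← hMord, pow_orderOf_eq_one, map_one]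
  have hcong := fix_congr r hr (nevPerm M) hfr (fun v => Q v = 0) (fun v => by
    rw [nevPerm_apply, hQM])
  have hcong' : Nat.card {v // Q v = 0} ≡ Nat.card {y : ι₁ → F // Q₁ y = 0} [MOD r] := by
    rw [← hfixcard]
    exact hcong
  have hV : Module.finrank F ((Fin k ⊕ Fin k) ⊕ ι₁ → F) = 2 * (d + 1) := by
    rw [Module.finrank_fintype_fun_eq_card]
    simp only [Fintype.card_sum, Fintype.card_fin, hcard]
    omega
  have hm : d + 1 = d₁ + i / 2 * ∑ P, a P := by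
    obtain ⟨j, hj⟩ := hev
    have h1 : i / 2 = j := by omega
    rw [h1]
    rw [hj] at hk
    have h2 : 2 * (j * ∑ P, a P) = 2 * k := by
      rw [← hk]
      ring
    omega
  have hcp : M.1.charpoly = cp F r (2 * (d + 1)) i a := by
    rw [hMcp, hcard]
    congr 1
    omega
  rcases classify_pm a' c' hac Q hQnd d hV with ⟨φ, hφ⟩ | ⟨φ, hφ⟩
  · have hNeq : Nat.card {v // Q v = 0} =
        Nat.card {v : Fin (d + 1) ⊕ Fin (d + 1) → F // Cfsg.quadFormPlus (d + 1) F v = 0} :=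
      Nat.card_congr (φ.toEquiv.subtypeEquiv (fun v => by
        show Q v = 0 ↔ Cfsg.quadFormPlus (d + 1) F (φ v) = 0
        rw [hφ]))
    have hN := N0_plus (F := F) (d + 1)
    rw [← hNeq] at hN
    have hs := sign_arith (Fintype.card F) r i (∑ P, a P) d₁ (d + 1) hr hr2 hi hev hi0 hm 1 ε₁
      (Or.inl rfl) hε₁ _ _ hN hN₁ hcong'
    constructor
    · intro _
      obtain ⟨g, hg1, hg2⟩ := transport (Cfsg.quadFormPlus (d + 1) F) Q 1 φ
        (fun v => by rw [hφ, one_mul]) M hQM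
      exact ⟨g, by rw [hg1, hMord], by rw [hg2, hcp]⟩
    · intro h
      rw [← hs] at h
      norm_num at h
  · have hNeq : Nat.card {v // Q v = 0} =
        Nat.card {v : (Fin d ⊕ Fin d) ⊕ Fin 2 → F // Cfsg.quadFormMinus d F a' c' v = 0} :=
      Nat.card_congr (φ.toEquiv.subtypeEquiv (fun v => by
        show Q v = 0 ↔ Cfsg.quadFormMinus d F a' c' (φ v) = 0
        rw [hφ]))
    have hN := N0_minus (F := F) a' c' hac d
    rw [← hNeq] at hN
    have hs := sign_arith (Fintype.card F) r i (∑ P, a P) d₁ (d + 1) hr hr2 hi hev hi0 hm (-1) ε₁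
      (Or.inr rfl) hε₁ _ _ hN hN₁ hcong'
    constructor
    · intro h
      rw [← hs] at h
      norm_num at h
    · intro _
      obtain ⟨g, hg1, hg2⟩ := transport (Cfsg.quadFormMinus d F a' c') Q 1 φ
        (fun v => by rw [hφ, one_mul]) M hQM
      exact ⟨g, by rw [hg1, hMord], by rw [hg2, hcp]⟩

end Cfsg.Agent.Lib.Helper50.CC
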