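import Cfsg.Agent.Lib.Helper50.CC.Defs2
import Cfsg.Prelude.Def_Classical
import Cfsg.Agent.Lib.Helper50.CC.BUILD
import Cfsg.Agent.Lib.Helper50.CC.CLSO
import Cfsg.Agent.Lib.Helper50.CC.TRP
import Cfsg.Agent.Lib.Helper49.HypPairs

/-! Ladder CC, rung EOD. -/

set_option autoImplicit false

namespace Cfsg.Agent.Lib.Helper50.CC

open Polynomial Cfsg.Agent.Lib.Helper65.GR Cfsg.Agent.Lib.Helper49 QuadraticMap Matrix

variable {F : Type*} [Field F]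

/-- EOD. -/
theorem exists_odd_dim [Fintype F] (p : ℕ) [Fact p.Prime] [CharP F p] (h2 : (2 : F) ≠ 0) (r i m : ℕ) (hr : r.Prime)
    (hr2 : r ≠ 2) (hrp : r ≠ p) (hi : 1 ≤ i) (hdeg : ∀ P ∈ irr F r, P.natDegree = i)
    (a : irr F r → ℕ) (ha0 : a ≠ 0) (hsym : ∀ P, a (st (RingHom.id F) r P) = a P) (k : ℕ)
    (hk : i * ∑ P, a P = 2 * k) (hkm : k ≤ m) :
    ∃ g : ↥(Cfsg.isometryGroup F (Cfsg.quadFormOdd m F)), orderOf g = r ∧
      (g.1.1 : Matrix _ _ F).charpoly = cp F r (2 * m + 1) i a := by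
  obtain ⟨Q, M, hQnd, hQM, hMord, hMcp, -⟩ :=
    build p r i k hr hr2 hrp hi hdeg a ha0 hk hsym (oddQF (m - k) F)
      (oddQF_nondegenerate (m - k) F h2)
  have hV : Module.finrank F ((Fin k ⊕ Fin k) ⊕ (Unit ⊕ (Fin (m - k) ⊕ Fin (m - k))) → F) =
      2 * m + 1 := by
    rw [Module.finrank_fintype_fun_eq_card]
    simp only [Fintype.card_sum, Fintype.card_fin, Fintype.card_unit]
    omega
  obtain ⟨c, φ, hφ⟩ := classify_odd h2 Q hQnd m hV
  obtain ⟨g, hg1, hg2⟩ := transport (Cfsg.quadFormOdd m F) Q c φ hφ M hQM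
  refine ⟨g, by rw [hg1, hMord], ?_⟩
  rw [hg2, hMcp]
  congr 1
  simp only [Fintype.card_sum, Fintype.card_fin, Fintype.card_unit]
  omega

end Cfsg.Agent.Lib.Helper50.CC
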