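import Cfsg.Agent.Lib.Helper50.CC.Defs

/-!
# Ladder CC, rung GEN: `charpoly_eq_cp` for a general index type; the identity has label `0`.
-/

set_option autoImplicit false

namespace Cfsg.Agent.Lib.Helper50.CC

open Polynomial Cfsg.Agent.Lib.Helper65.GR

variable {F : Type*} [Field F]

/-- GEN. -/
theorem charpoly_eq_cp' {ι : Type*} [Fintype ι] [DecidableEq ι] (r n i : ℕ) (hr : r.Prime) (hrF : (r : F) ≠ 0)
    (hdeg : ∀ P ∈ irr F r, P.natDegree = i) (hn : Fintype.card ι = n) (M : Matrix ι ι F) (hM : M ^ r = 1) :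
    ∃ a : irr F r → ℕ, i * ∑ P, a P ≤ n ∧ M.charpoly = cp F r n i a := by
  let e := Fintype.equivFinOfCardEq hn
  have h1 : (Matrix.reindexAlgEquiv F F e M) ^ r = 1 := by
    rw [← map_pow, hM, map_one]
  obtain ⟨a, ha, hc⟩ := charpoly_eq_cp r n i hr hrF hdeg (Matrix.reindexAlgEquiv F F e M) h1
  refine ⟨a, ha, ?_⟩
  rw [← hc]
  exact (Matrix.charpoly_reindex e M).symm

/-- NE. -/
theorem ne_one_of_charpoly {ι : Type*} [Fintype ι] [DecidableEq ι] (r n i : ℕ) (hr : r.Prime)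
    (hrF : (r : F) ≠ 0) (hn : Fintype.card ι = n) (a : irr F r → ℕ) (M : Matrix ι ι F)
    (hc : M.charpoly = cp F r n i a) : M = 1 → a = 0 := by
  rintro rfl
  apply cp_injective r n i hr hrF
  rw [← hc, Matrix.charpoly_one, hn]
  simp [cp]

end Cfsg.Agent.Lib.Helper50.CC
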