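import Cfsg.Agent.Lib.Helper50.CC.Defs

/-! Ladder CC, rung TW3: `tw σ` is an involution on monic polynomials with non-zero constant coefficient. -/

set_option autoImplicit false

namespace Cfsg.Agent.Lib.Helper50.CC

open Polynomial Cfsg.Agent.Lib.Helper65.GR

variable {F : Type*} [Field F]

theorem tw3_coeff (σ : F →+* F) (f : F[X]) (n : ℕ) :
    (tw σ f).coeff n = (σ (f.coeff 0))⁻¹ * σ (f.coeff (revAt f.natDegree n)) := by
  unfold tw
  rw [coeff_C_mul, coeff_reverse, natDegree_map, coeff_map, coeff_map]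

theorem tw3_natDegree (σ : F →+* F) (f : F[X]) (h0 : f.coeff 0 ≠ 0) :
    (tw σ f).natDegree = f.natDegree := by
  unfold tw
  have hc : (f.map σ).coeff 0 ≠ 0 := by
    rw [coeff_map]
    exact (map_ne_zero σ).mpr h0
  rw [natDegree_C_mul (inv_ne_zero hc), reverse_natDegree, natDegree_map]
  have : (f.map σ).natTrailingDegree = 0 := by
    rw [natTrailingDegree_eq_zero]
    exact Or.inr hc
  omega

/-- TW3. -/
theorem tw_tw (σ : F →+* F) (hσ : ∀ x, σ (σ x) = x) (f : F[X]) (hm : f.Monic) (h0 : f.coeff 0 ≠ 0) :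
    tw σ (tw σ f) = f := by
  ext n
  rw [tw3_coeff, tw3_natDegree σ f h0, tw3_coeff, tw3_coeff, revAt_invol]
  have h1 : revAt f.natDegree 0 = f.natDegree := by
    rw [revAt_le (Nat.zero_le _)]; simp
  rw [h1, hm.coeff_natDegree, map_one, mul_one, map_mul, hσ, map_inv₀, hσ, inv_inv, ← mul_assoc,
    mul_inv_cancel₀ h0, one_mul]

end Cfsg.Agent.Lib.Helper50.CC
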