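import Cfsg.Agent.Lib.Helper50.CC.GU2
import Cfsg.Agent.Lib.Helper50.CC.TW3

/-!
# Ladder CC, rung GU1: the characteristic polynomial of a unitary matrix is `tw`-invariant.
-/

set_option autoImplicit false

namespace Cfsg.Agent.Lib.Helper50.CC

open Polynomial Cfsg.Agent.Lib.Helper65.GR Cfsg.Agent.Lib.Helper50 Cfsg.Agent.Lib.Helper50.GUConj
  Cfsg.Agent.Lib.Helper50.Herm

variable {K : Type*} [Field K] [Fintype K] {q n : ℕ}

/-- GU1. -/
theorem gu_tw (hK : Fintype.card K = q ^ 2) (g : Matrix.GeneralLinearGroup (Fin n) K) (hg : g ∈ Cfsg.GU n K q) :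
    tw (frobQ hK) (g : Matrix (Fin n) (Fin n) K).charpoly = (g : Matrix (Fin n) (Fin n) K).charpoly := by
  set gm : Matrix (Fin n) (Fin n) K := (g : Matrix (Fin n) (Fin n) K) with hgm
  have h1 : dag hK gm * gm = 1 := (mem_GU_iff_dag hK g).mp hg
  have h2 : gm * dag hK gm = 1 := mul_eq_one_comm.mp h1
  have h3 := charpoly_of_mul_eq_one gm (dag hK gm) h2
  rw [gu2_charpoly_dag hK gm] at h3
  have h0 : gm.charpoly.coeff 0 ≠ 0 := by
    intro h
    have h4 := Matrix.det_eq_sign_charpoly_coeff gm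
    rw [h, mul_zero] at h4
    have h5 : IsUnit gm.det := (Matrix.isUnit_iff_isUnit_det gm).mp ⟨g, rfl⟩
    exact h5.ne_zero h4
  rw [← gu2_tw_id, h3]
  exact tw_tw (RingHom.id K) (fun _ => rfl) gm.charpoly (Matrix.charpoly_monic gm) h0

end Cfsg.Agent.Lib.Helper50.CC
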