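import Cfsg.Agent.Lib.Helper50.CC.Defs

/-!
# Ladder CC, rung INV: characteristic polynomial of the inverse matrix.
-/

set_option autoImplicit false

namespace Cfsg.Agent.Lib.Helper50.CC

open Polynomial Cfsg.Agent.Lib.Helper65.GR

variable {F : Type*} [Field F]

/-- INV. -/
theorem charpoly_of_mul_eq_one {ι : Type*} [Fintype ι] [DecidableEq ι] (M N : Matrix ι ι F) (h : M * N = 1) :
    N.charpoly = tw (RingHom.id F) M.charpoly := by
  have hN : N = M⁻¹ := (Matrix.inv_eq_right_inv h).symm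
  have hu : IsUnit M := ⟨⟨M, N, h, mul_eq_one_comm.mp h⟩, rfl⟩
  have hdet : M.det ≠ 0 := by
    have := (Matrix.isUnit_iff_isUnit_det M).mp hu
    exact this.ne_zero
  have h1 := Matrix.charpoly_inv M hu
  unfold tw
  rw [Polynomial.map_id, hN, h1, Matrix.reverse_charpoly, Ring.inverse_eq_inv']
  congr 1
  have h2 := Matrix.det_eq_sign_charpoly_coeff M
  have h3 : M.charpoly.coeff 0 = (-1) ^ Fintype.card ι * M.det := by
    rw [h2, ← mul_assoc, ← pow_add, ← two_mul, pow_mul, neg_one_sq, one_pow, one_mul]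
  rw [h3, mul_inv, C_mul, ← inv_pow, inv_neg_one]
  simp

end Cfsg.Agent.Lib.Helper50.CC
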