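import Cfsg.Agent.Lib.Helper50.CC.Defs
import Cfsg.Agent.Lib.Helper50.CC.INV
import Cfsg.Agent.Lib.Helper50.GUConj2
import Cfsg.Agent.Lib.Helper50.GUFrames

/-!
# Ladder CC, rung GU2: a `p'`-matrix with `tw`-invariant characteristic polynomial is similar to a unitary one.
-/

set_option autoImplicit false

namespace Cfsg.Agent.Lib.Helper50.CC

open Polynomial Cfsg.Agent.Lib.Helper65.GR Cfsg.Agent.Lib.Helper50 Cfsg.Agent.Lib.Helper50.GUConj
  Cfsg.Agent.Lib.Helper50.Herm

variable {K : Type*} [Field K] [Fintype K] {q n : ℕ}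

theorem gu2_dag_pow (hK : Fintype.card K = q ^ 2) (x : Matrix (Fin n) (Fin n) K) (k : ℕ) :
    dag hK (x ^ k) = dag hK x ^ k := by
  induction k with
  | zero => rw [pow_zero, pow_zero, dag_one]
  | succ k ih => rw [pow_succ, dag_mul, ih, pow_succ']

theorem gu2_charpoly_dag (hK : Fintype.card K = q ^ 2) (x : Matrix (Fin n) (Fin n) K) :
    (dag hK x).charpoly = x.charpoly.map (frobQ hK) := by
  rw [dag, Matrix.charpoly_transpose, Matrix.charpoly_map]

omit [Fintype K] in
theorem gu2_tw_id (σ : K →+* K) (f : K[X]) : tw (RingHom.id K) (f.map σ) = tw σ f := by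
  unfold tw
  rw [Polynomial.map_id]

/-- GU2. -/
theorem gu_exists (hK : Fintype.card K = q ^ 2) (p : ℕ) [Fact p.Prime] [CharP K p]
    (M : Matrix.GeneralLinearGroup (Fin n) K) (hM : (orderOf M).Coprime p)
    (htw : tw (frobQ hK) (M : Matrix (Fin n) (Fin n) K).charpoly = (M : Matrix (Fin n) (Fin n) K).charpoly) :
    ∃ z : Matrix.GeneralLinearGroup (Fin n) K, z * M * z⁻¹ ∈ Cfsg.GU n K q := by
  set Mm : Matrix (Fin n) (Fin n) K := (M : Matrix (Fin n) (Fin n) K) with hMm
  set Mi : Matrix (Fin n) (Fin n) K := ((M⁻¹ : Matrix.GeneralLinearGroup (Fin n) K) : Matrix (Fin n) (Fin n) K)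
    with hMi
  have m1 : Mm * Mi = 1 := M.mul_inv
  have m2 : Mi * Mm = 1 := M.inv_mul
  have d1 : dag hK Mm * dag hK Mi = 1 := by rw [← dag_mul, m2, dag_one]
  have d2 : dag hK Mi * dag hK Mm = 1 := by rw [← dag_mul, m1, dag_one]
  let N : Matrix.GeneralLinearGroup (Fin n) K := ⟨dag hK Mi, dag hK Mm, d2, d1⟩
  have hNc : (N : Matrix (Fin n) (Fin n) K).charpoly = Mm.charpoly := by
    have h1 := charpoly_of_mul_eq_one (dag hK Mm) (dag hK Mi) d1
    rw [gu2_charpoly_dag hK Mm, gu2_tw_id, htw] at h1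
    exact h1
  have hNk : N ^ orderOf M = 1 := by
    apply Units.ext
    rw [Units.val_pow_eq_pow_val, Units.val_one]
    show dag hK Mi ^ orderOf M = 1
    rw [← gu2_dag_pow, hMi, ← Units.val_pow_eq_pow_val, inv_pow, pow_orderOf_eq_one, inv_one,
      Units.val_one, dag_one]
  have hN : (orderOf N).Coprime p := Nat.Coprime.coprime_dvd_left (orderOf_dvd_of_pow_eq_one hNk) hM
  obtain ⟨x, hx⟩ := SemiConj.conj_GL p M N hM hN hNc.symm
  apply exists_conj_mem_GU hK M x
  have h2 : x * M = N * x := by rw [← hx]; group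
  have h3 : (x : Matrix (Fin n) (Fin n) K) * Mm = dag hK Mi * (x : Matrix (Fin n) (Fin n) K) := by
    have := congrArg (fun u : Matrix.GeneralLinearGroup (Fin n) K => (u : Matrix (Fin n) (Fin n) K)) h2
    simpa using this
  rw [mul_assoc, h3, ← mul_assoc, d1, one_mul]

end Cfsg.Agent.Lib.Helper50.CC
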