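import Mathlib

set_option autoImplicit false

namespace Cfsg.Agent.Lib.Helper50.CC

/-- HALF. -/
theorem exists_half {ι : Type*} [Fintype ι] (s : ι → ι) (hs : ∀ x, s (s x) = x) (hf : ∀ x, s x ≠ x) (a : ι → ℕ)
    (ha : ∀ P, a (s P) = a P) :
    ∃ b : ι → ℕ, (∀ P, a P = b P + b (s P)) ∧ ∀ P, b P = 0 ∨ b (s P) = 0 := by
  classical
  let e := Fintype.equivFin ι
  refine ⟨fun x => if e x < e (s x) then a x else 0, fun P => ?_, fun P => ?_⟩
  · have hne : e P ≠ e (s P) := fun h => hf P (e.injective h).symm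
    simp only [hs]
    rcases lt_or_gt_of_ne hne with h | h
    · rw [if_pos h, if_neg (not_lt.mpr h.le)]; simp
    · rw [if_neg (not_lt.mpr h.le), if_pos h, ha]; simp
  · simp only [hs]
    by_cases h : e P < e (s P)
    · right; rw [if_neg (not_lt.mpr h.le)]
    · left; rw [if_neg h]

end Cfsg.Agent.Lib.Helper50.CC
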