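import Cfsg.Agent.Lib.Helper50.CC.TW4

/-! Ladder CC, rung TW5: `tw σ` on the polynomials `cp`. -/

set_option autoImplicit false

namespace Cfsg.Agent.Lib.Helper50.CC

open Polynomial Cfsg.Agent.Lib.Helper65.GR

variable {F : Type*} [Field F]

/-- the involution `st σ r` as an equivalence -/
noncomputable def tw5Equiv (σ : F →+* F) (hσ : ∀ x, σ (σ x) = x) (r : ℕ) (hr : r.Prime)
    (hrF : (r : F) ≠ 0) : irr F r ≃ irr F r where
  toFun := st σ r
  invFun := st σ r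
  left_inv := st_st σ hσ r hr hrF
  right_inv := st_st σ hσ r hr hrF

theorem tw5_prod (σ : F →+* F) (hσ : ∀ x, σ (σ x) = x) (r : ℕ) (hr : r.Prime) (hrF : (r : F) ≠ 0)
    (a : irr F r → ℕ) :
    tw σ (∏ P : irr F r, (P : F[X]) ^ a P) = ∏ P : irr F r, (P : F[X]) ^ a (st σ r P) := by
  rw [tw_prod]
  rw [← Equiv.prod_comp (tw5Equiv σ hσ r hr hrF) (fun P : irr F r => (P : F[X]) ^ a (st σ r P))]
  apply Finset.prod_congr rfl
  intro P _
  change _ = ((st σ r P : irr F r) : F[X]) ^ a (st σ r (st σ r P))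
  rw [tw_pow, st_st σ hσ r hr hrF, st_coe σ hσ r hr hrF]

theorem tw5_sum (σ : F →+* F) (hσ : ∀ x, σ (σ x) = x) (r : ℕ) (hr : r.Prime) (hrF : (r : F) ≠ 0)
    (a : irr F r → ℕ) : ∑ P, a (st σ r P) = ∑ P, a P :=
  Equiv.sum_comp (tw5Equiv σ hσ r hr hrF) a

/-- TW5. -/
theorem tw_cp (σ : F →+* F) (hσ : ∀ x, σ (σ x) = x) (r n i : ℕ) (hr : r.Prime) (hrF : (r : F) ≠ 0)
    (a : irr F r → ℕ) : tw σ (cp F r n i a) = cp F r n i (fun P => a (st σ r P)) := by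
  unfold cp
  rw [tw_mul, tw_pow, tw_X_sub_one, tw5_prod σ hσ r hr hrF, tw5_sum σ hσ r hr hrF]

/-- TW5b. -/
theorem sym_iff_tw (σ : F →+* F) (hσ : ∀ x, σ (σ x) = x) (r n i : ℕ) (hr : r.Prime) (hrF : (r : F) ≠ 0)
    (a : irr F r → ℕ) : tw σ (cp F r n i a) = cp F r n i a ↔ ∀ P, a (st σ r P) = a P := by
  rw [tw_cp σ hσ r n i hr hrF]
  constructor
  · intro h P
    exact congrFun (cp_injective r n i hr hrF _ _ h) P
  · intro h
    congr 1
    funext P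
    exact h P

end Cfsg.Agent.Lib.Helper50.CC
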