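import Cfsg.Agent.Lib.Helper50.CC.Defs
import Cfsg.Agent.Lib.Helper50.CC.TW5
import Cfsg.Agent.Lib.Helper50.CC.INV

set_option autoImplicit false

namespace Cfsg.Agent.Lib.Helper50.CC

open Polynomial Cfsg.Agent.Lib.Helper65.GR Matrix

variable {F : Type*} [Field F]

theorem hypc_half {ι : Type*} [Fintype ι] (s : ι → ι) (hs : ∀ x, s (s x) = x) (hf : ∀ x, s x ≠ x)
    (a : ι → ℕ) (ha : ∀ P, a (s P) = a P) :
    ∃ b : ι → ℕ, (∀ P, a P = b P + b (s P)) ∧ ∀ P, b P = 0 ∨ b (s P) = 0 := by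
  classical
  let e := Fintype.equivFin ι
  refine ⟨fun x => if e x < e (s x) then a x else 0, ?_, ?_⟩
  · intro P
    have hne : e (s P) ≠ e P := fun h => hf P (e.injective h)
    simp only [hs, ha]
    rcases lt_or_gt_of_ne hne with h | h
    · rw [if_neg (not_lt.mpr h.le), if_pos h]; simp
    · rw [if_pos h, if_neg (not_lt.mpr h.le)]; simp
  · intro P
    simp only [hs]
    by_cases h : e P < e (s P)
    · right
      rw [if_neg (not_lt.mpr h.le)]
    · left
      rw [if_neg h]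

theorem hypc_cp_mul (r n₁ n₂ i : ℕ) (a b : irr F r → ℕ) (ha : i * ∑ P, a P ≤ n₁)
    (hb : i * ∑ P, b P ≤ n₂) :
    cp F r n₁ i a * cp F r n₂ i b = cp F r (n₁ + n₂) i (a + b) := by
  unfold cp
  have h1 : ∑ P, (a + b) P = ∑ P, a P + ∑ P, b P := by
    simp [Finset.sum_add_distrib]
  have h2 : n₁ + n₂ - i * ∑ P, (a + b) P = (n₁ - i * ∑ P, a P) + (n₂ - i * ∑ P, b P) := by
    rw [h1, mul_add]; omega
  have h3 : ∏ P : irr F r, (P : F[X]) ^ (a + b) P =
      (∏ P : irr F r, (P : F[X]) ^ a P) * ∏ P : irr F r, (P : F[X]) ^ b P := by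
    rw [← Finset.prod_mul_distrib]
    exact Finset.prod_congr rfl (fun P _ => by rw [Pi.add_apply, pow_add])
  rw [h2, h3, pow_add]
  ring

/-- HYPC. -/
theorem hyp_core [Fintype F] (p : ℕ) [Fact p.Prime] [CharP F p] (k r i : ℕ) (hr : r.Prime) (hrp : r ≠ p)
    (hi : 1 ≤ i) (hdeg : ∀ P ∈ irr F r, P.natDegree = i) (hf : ∀ P, st (RingHom.id F) r P ≠ P)
    (a : irr F r → ℕ) (ha0 : a ≠ 0) (ha : i * ∑ P, a P ≤ 2 * k)
    (hsym : ∀ P, a (st (RingHom.id F) r P) = a P) :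
    ∃ A : Matrix.GeneralLinearGroup (Fin k) F, orderOf A = r ∧
      (A : Matrix (Fin k) (Fin k) F).charpoly *
        (((A⁻¹ : Matrix.GeneralLinearGroup (Fin k) F) : Matrix (Fin k) (Fin k) F)ᵀ).charpoly = cp F r (2 * k) i a := by
  have hp : p.Prime := Fact.out
  have hrF : (r : F) ≠ 0 := by
    intro h
    rw [CharP.cast_eq_zero_iff F p r] at h
    exact hrp ((Nat.prime_dvd_prime_iff_eq hp hr).mp h).symm
  have hσ : ∀ x : F, (RingHom.id F) ((RingHom.id F) x) = x := fun _ => rfl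
  obtain ⟨b, hb1, -⟩ := hypc_half (st (RingHom.id F) r) (st_st _ hσ r hr hrF) hf a hsym
  have hab : a = b + fun P => b (st (RingHom.id F) r P) := by
    funext P
    exact hb1 P
  have hsum : ∑ P, a P = 2 * ∑ P, b P := by
    have h1 : ∑ P, a P = ∑ P, b P + ∑ P, b (st (RingHom.id F) r P) := by
      rw [← Finset.sum_add_distrib]
      exact Finset.sum_congr rfl (fun P _ => hb1 P)
    rw [h1, tw5_sum _ hσ r hr hrF]; ring
  have hbk : i * ∑ P, b P ≤ k := by
    rw [hsum] at ha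
    have : 2 * (i * ∑ P, b P) ≤ 2 * k := by
      calc 2 * (i * ∑ P, b P) = i * (2 * ∑ P, b P) := by ring
        _ ≤ 2 * k := ha
    omega
  have hb0 : b ≠ 0 := by
    rintro rfl
    apply ha0
    rw [hab]
    funext P
    simp
  obtain ⟨A, hA, hc⟩ := exists_order p r k i hr hrp hi hdeg b hb0 hbk
  refine ⟨A, hA, ?_⟩
  have h1 : ((A⁻¹ : Matrix.GeneralLinearGroup (Fin k) F) : Matrix (Fin k) (Fin k) F).charpoly
      = tw (RingHom.id F) (A : Matrix (Fin k) (Fin k) F).charpoly := by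
    apply charpoly_of_mul_eq_one
    rw [← Units.val_mul, mul_inv_cancel, Units.val_one]
  rw [Matrix.charpoly_transpose, h1, hc, tw_cp _ hσ r k i hr hrF,
    hypc_cp_mul r k k i b _ hbk (by rw [tw5_sum _ hσ r hr hrF]; exact hbk), ← hab, two_mul]

end Cfsg.Agent.Lib.Helper50.CC
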