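import Mathlib
import Cfsg.Prelude.Def_Classical

set_option autoImplicit false

namespace Cfsg.Agent.Lib.Helper50.CC

open Polynomial Matrix

variable {F : Type*} [Field F]

/-- block diagonal `diag(A, A^{-T})` as a monoid hom. -/
def hyppD (k : ℕ) :
    Matrix.GeneralLinearGroup (Fin k) F →* Matrix.GeneralLinearGroup (Fin k ⊕ Fin k) F where
  toFun A := ⟨fromBlocks A.1 0 0 ((A⁻¹).1)ᵀ, fromBlocks (A⁻¹).1 0 0 (A.1)ᵀ, by
      rw [fromBlocks_multiply]
      simp only [mul_zero, zero_mul, add_zero, zero_add, ← transpose_mul, ← Units.val_mul,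
        mul_inv_cancel, inv_mul_cancel, Units.val_one, transpose_one, fromBlocks_one], by
      rw [fromBlocks_multiply]
      simp only [mul_zero, zero_mul, add_zero, zero_add, ← transpose_mul, ← Units.val_mul,
        mul_inv_cancel, inv_mul_cancel, Units.val_one, transpose_one, fromBlocks_one]⟩
  map_one' := by
    apply Units.ext
    simp only [inv_one, Units.val_one, transpose_one, fromBlocks_one]
  map_mul' A B := by
    apply Units.ext
    simp only [Units.val_mul, fromBlocks_multiply, _root_.mul_inv_rev, transpose_mul, mul_zero, zero_mul,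
      add_zero, zero_add]

theorem hyppD_val (k : ℕ) (A : Matrix.GeneralLinearGroup (Fin k) F) :
    (hyppD k A).1 = fromBlocks A.1 0 0 ((A⁻¹).1)ᵀ := rfl

theorem hyppD_injective (k : ℕ) : Function.Injective (hyppD (F := F) k) := by
  intro A B h
  have h1 : (hyppD k A).1 = (hyppD k B).1 := by rw [h]
  rw [hyppD_val, hyppD_val, fromBlocks_inj] at h1
  exact Units.ext h1.1

theorem hypp_dot (k : ℕ) (A : Matrix.GeneralLinearGroup (Fin k) F) (x y : Fin k → F) :
    (A.1 *ᵥ x) ⬝ᵥ (((A⁻¹).1)ᵀ *ᵥ y) = x ⬝ᵥ y := by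
  rw [mulVec_transpose, dotProduct_comm, dotProduct_mulVec, vecMul_vecMul, ← Units.val_mul,
    inv_mul_cancel, Units.val_one, vecMul_one, dotProduct_comm]

theorem hyppD_charpoly (k : ℕ) (A : Matrix.GeneralLinearGroup (Fin k) F) :
    (hyppD k A).1.charpoly = A.1.charpoly * (((A⁻¹).1)ᵀ).charpoly := by
  rw [hyppD_val, charpoly_fromBlocks_zero₁₂]

/-- generic packaging: an injective hom into `GL` all of whose values preserve `Q`. -/
theorem hypp_gen {ι : Type} [Fintype ι] [DecidableEq ι] (Q : (ι → F) → F) {H : Type*} [Group H]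
    (Φ : H →* Matrix.GeneralLinearGroup ι F) (hinj : Function.Injective Φ)
    (hQ : ∀ A v, Q ((Φ A).1 *ᵥ v) = Q v) (A : H) :
    ∃ g : ↥(Cfsg.isometryGroup F Q), orderOf g = orderOf A ∧ g.1.1 = (Φ A).1 := by
  refine ⟨⟨Φ A, fun u _ => hQ A u⟩, ?_, rfl⟩
  rw [← Subgroup.orderOf_coe]
  exact orderOf_injective Φ hinj A

theorem hyppD_sum (k : ℕ) (A : Matrix.GeneralLinearGroup (Fin k) F) (v : Fin k ⊕ Fin k → F) :
    ∑ i : Fin k, ((hyppD k A).1 *ᵥ v) (.inl i) * ((hyppD k A).1 *ᵥ v) (.inr i) =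
      ∑ i : Fin k, v (.inl i) * v (.inr i) := by
  have h := hypp_dot k A (v ∘ Sum.inl) (v ∘ Sum.inr)
  rw [hyppD_val, fromBlocks_mulVec]
  simpa [dotProduct] using h

/-- HYPP. -/
theorem hyp_plus (k : ℕ) (A : Matrix.GeneralLinearGroup (Fin k) F) :
    ∃ g : ↥(Cfsg.isometryGroup F (Cfsg.quadFormPlus k F)), orderOf g = orderOf A ∧
      (g.1.1 : Matrix _ _ F).charpoly = (A : Matrix (Fin k) (Fin k) F).charpoly *
        (((A⁻¹ : Matrix.GeneralLinearGroup (Fin k) F) : Matrix (Fin k) (Fin k) F)ᵀ).charpoly := by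
  obtain ⟨g, h1, h2⟩ := hypp_gen (Cfsg.quadFormPlus k F) (hyppD k) (hyppD_injective k)
    (fun A v => hyppD_sum k A v) A
  exact ⟨g, h1, by rw [h2, hyppD_charpoly]⟩

end Cfsg.Agent.Lib.Helper50.CC
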