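import Mathlib
import Cfsg.Prelude.Def_Classical
import Cfsg.Agent.Lib.Helper50.CC.HYPP

set_option autoImplicit false

namespace Cfsg.Agent.Lib.Helper50.CC

open Polynomial Matrix

variable {F : Type*} [Field F]

/-- `M ↦ diag(M, 1)` as a monoid hom of matrices. -/
def hypmL (α β : Type) [Fintype α] [DecidableEq α] [Fintype β] [DecidableEq β] :
    Matrix α α F →* Matrix (α ⊕ β) (α ⊕ β) F where
  toFun M := fromBlocks M 0 0 1
  map_one' := fromBlocks_one
  map_mul' A B := by
    simp [fromBlocks_multiply]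

theorem hypmL_injective (α β : Type) [Fintype α] [DecidableEq α] [Fintype β] [DecidableEq β] :
    Function.Injective (Units.map (hypmL (F := F) α β)) := by
  intro A B h
  have h1 : (Units.map (hypmL (F := F) α β) A).1 = (Units.map (hypmL (F := F) α β) B).1 := by
    rw [h]
  have h2 : fromBlocks A.1 0 0 (1 : Matrix β β F) = fromBlocks B.1 0 0 1 := h1
  rw [fromBlocks_inj] at h2
  exact Units.ext h2.1

/-- HYPM. -/
theorem hyp_minus (k : ℕ) (a' c' : F) (A : Matrix.GeneralLinearGroup (Fin k) F) :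
    ∃ g : ↥(Cfsg.isometryGroup F (Cfsg.quadFormMinus k F a' c')), orderOf g = orderOf A ∧
      (g.1.1 : Matrix _ _ F).charpoly = (A : Matrix (Fin k) (Fin k) F).charpoly *
        (((A⁻¹ : Matrix.GeneralLinearGroup (Fin k) F) : Matrix (Fin k) (Fin k) F)ᵀ).charpoly * (X - 1) ^ 2 := by
  obtain ⟨g, h1, h2⟩ := hypp_gen (Cfsg.quadFormMinus k F a' c')
    ((Units.map (hypmL (F := F) (Fin k ⊕ Fin k) (Fin 2))).comp (hyppD k))
    ((hypmL_injective _ _).comp (hyppD_injective k))
    (fun A v => by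
      have hv : (((Units.map (hypmL (F := F) (Fin k ⊕ Fin k) (Fin 2))).comp (hyppD k)) A).1
          = fromBlocks (hyppD k A).1 0 0 1 := rfl
      rw [hv, fromBlocks_mulVec]
      have h := hyppD_sum k A (v ∘ Sum.inl)
      unfold Cfsg.quadFormMinus
      simp only [zero_mulVec, add_zero, zero_add, one_mulVec, Sum.elim_inl, Sum.elim_inr,
        Function.comp_apply] at h ⊢
      rw [h]) A
  refine ⟨g, h1, ?_⟩
  have hv : (((Units.map (hypmL (F := F) (Fin k ⊕ Fin k) (Fin 2))).comp (hyppD k)) A).1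
      = fromBlocks (hyppD k A).1 0 0 1 := rfl
  rw [h2, hv, charpoly_fromBlocks_zero₁₂, hyppD_charpoly, charpoly_one, Fintype.card_fin]

end Cfsg.Agent.Lib.Helper50.CC
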