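import Cfsg.Agent.Lib.Helper50.CC.Defs

/-! Ladder CC, rung TW2: basic properties of `tw σ`. -/

set_option autoImplicit false

namespace Cfsg.Agent.Lib.Helper50.CC

open Polynomial Cfsg.Agent.Lib.Helper65.GR

variable {F : Type*} [Field F]

theorem tw2_coeff (σ : F →+* F) (f : F[X]) (n : ℕ) :
    (tw σ f).coeff n = (σ (f.coeff 0))⁻¹ * σ (f.coeff (revAt f.natDegree n)) := by
  unfold tw
  rw [coeff_C_mul, coeff_reverse, natDegree_map, coeff_map, coeff_map]

/-- TW2. -/
theorem tw_natDegree (σ : F →+* F) (f : F[X]) (h0 : f.coeff 0 ≠ 0) :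
    (tw σ f).natDegree = f.natDegree := by
  unfold tw
  have hc : (f.map σ).coeff 0 ≠ 0 := by
    rw [coeff_map]
    exact (map_ne_zero σ).mpr h0
  rw [natDegree_C_mul (inv_ne_zero hc), reverse_natDegree, natDegree_map]
  have : (f.map σ).natTrailingDegree = 0 := by
    rw [natTrailingDegree_eq_zero]
    exact Or.inr hc
  omega

/-- TW2. -/
theorem tw_monic (σ : F →+* F) (f : F[X]) (h0 : f.coeff 0 ≠ 0) : (tw σ f).Monic := by
  unfold Monic leadingCoeff
  rw [tw_natDegree σ f h0, tw2_coeff, revAt_le le_rfl, Nat.sub_self]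
  exact inv_mul_cancel₀ ((map_ne_zero σ).mpr h0)

/-- TW2. -/
theorem tw_coeff_zero (σ : F →+* F) (f : F[X]) (hm : f.Monic) (h0 : f.coeff 0 ≠ 0) :
    (tw σ f).coeff 0 ≠ 0 := by
  rw [tw2_coeff, revAt_le (Nat.zero_le _), Nat.sub_zero, hm.coeff_natDegree, map_one, mul_one]
  exact inv_ne_zero ((map_ne_zero σ).mpr h0)

/-- TW2. -/
theorem tw_X_sub_one (σ : F →+* F) : tw σ (X - 1 : F[X]) = X - 1 := by
  have hd : (X - 1 : F[X]).natDegree = 1 := by
    have := natDegree_X_sub_C (1 : F)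
    simpa using this
  ext n
  rw [tw2_coeff, hd]
  have h0 : (X - 1 : F[X]).coeff 0 = -1 := by simp
  have h1 : (X - 1 : F[X]).coeff 1 = 1 := by simp [coeff_one]
  rw [h0]
  rcases n with _ | _ | n
  · rw [revAt_le (by norm_num), h0]
    simp [h1]
  · rw [revAt_le (by norm_num), h1]
    simp
  · rw [revAt_eq_self_of_lt (by omega)]
    have h2 : (X - 1 : F[X]).coeff (n + 1 + 1) = 0 := by
      apply coeff_eq_zero_of_natDegree_lt
      rw [hd]; omega
    rw [h2]; simp

end Cfsg.Agent.Lib.Helper50.CC
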