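import Cfsg.Agent.Lib.Helper50.CC.Defs2
import Cfsg.Agent.Lib.Helper50.CC.TW2
import Cfsg.Agent.Lib.Helper50.CC.TW3

/-! Ladder CC, rung NOD1. -/

set_option autoImplicit false

namespace Cfsg.Agent.Lib.Helper50.CC

open Polynomial Cfsg.Agent.Lib.Helper65.GR QuadraticMap Matrix

variable {F : Type*} [Field F]

theorem nod1_adj {V : Type*} [AddCommGroup V] [Module F V] (B : LinearMap.BilinForm F V)
    (T S : Module.End F V) (hTS : T * S = 1) (hB : ∀ x y, B (T x) (T y) = B x y) (f : F[X])
    (x y : V) : B (aeval T f x) y = B x (aeval S f y) := by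
  have hpow : ∀ n : ℕ, ∀ x y, B ((T ^ n) x) y = B x ((S ^ n) y) := by
    intro n
    induction n with
    | zero => intro x y; simp
    | succ n ih =>
      intro x y
      have hy : T (S y) = y := by
        have := congrArg (fun g : Module.End F V => g y) hTS
        simpa using this
      rw [pow_succ', Module.End.mul_apply]
      conv_lhs => rw [← hy]
      rw [hB, ih, pow_succ, Module.End.mul_apply]
  induction f using Polynomial.induction_on' with
  | add p q hp hq => simp only [map_add, LinearMap.add_apply, hp, hq]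
  | monomial n a =>
    simp only [aeval_monomial, Module.End.mul_apply, Module.algebraMap_end_apply, map_smul,
      LinearMap.smul_apply, hpow]

theorem nod1_rev {V : Type*} [AddCommGroup V] [Module F V] (T S : Module.End F V)
    (hST : S * T = 1) (hTS : T * S = 1) (f : F[X]) (y : V) :
    aeval S f y = (S ^ f.natDegree) (aeval T f.reverse y) := by
  have hcomm : Commute S T := by
    show S * T = T * S
    rw [hST, hTS]
  have hk : ∀ k : ℕ, S ^ k * T ^ k = 1 := fun k => by rw [← hcomm.mul_pow, hST, one_pow]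
  rw [aeval_eq_sum_range, aeval_eq_sum_range' (Nat.lt_succ_of_le (reverse_natDegree_le f))]
  simp only [LinearMap.sum_apply, LinearMap.smul_apply, map_sum, map_smul]
  refine (Finset.sum_flip (fun k => f.coeff k • (S ^ k) y)).symm.trans ?_
  apply Finset.sum_congr rfl
  intro k hk'
  have hkd : k ≤ f.natDegree := Nat.lt_succ_iff.1 (Finset.mem_range.1 hk')
  rw [coeff_reverse, revAt_le hkd]
  congr 1
  have h1 : S ^ f.natDegree = S ^ (f.natDegree - k) * S ^ k := by
    rw [← pow_add, Nat.sub_add_cancel hkd]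
  rw [h1, Module.End.mul_apply, ← Module.End.mul_apply (S ^ k) (T ^ k), hk, Module.End.one_apply]

theorem nod1_kill {V : Type*} [AddCommGroup V] [Module F V] (T S : Module.End F V)
    (hST : S * T = 1) (hTS : T * S = 1) (f : F[X]) (h0 : f.coeff 0 ≠ 0) (w : V)
    (hw : aeval T (tw (RingHom.id F) f) w = 0) : aeval S f w = 0 := by
  rw [nod1_rev T S hST hTS f w]
  have h1 : aeval T f.reverse w = 0 := by
    unfold tw at hw
    rw [Polynomial.map_id, map_mul, aeval_C, Module.End.mul_apply,
      Module.algebraMap_end_apply] at hw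
    exact (smul_eq_zero.1 hw).resolve_left (inv_ne_zero h0)
  rw [h1, map_zero]

theorem nod1_iso_le {V : Type*} [AddCommGroup V] [Module F V] [FiniteDimensional F V]
    (B : LinearMap.BilinForm F V) (hB : B.Nondegenerate) (U : Submodule F V)
    (hU : ∀ u ∈ U, ∀ w ∈ U, B u w = 0) : 2 * Module.finrank F U ≤ Module.finrank F V := by
  have h1 : U ≤ B.orthogonal U := by
    intro w hw
    rw [LinearMap.BilinForm.mem_orthogonal_iff]
    intro u hu
    exact hU u hu w hw
  have h2 := Submodule.finrank_mono h1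
  have h3 := LinearMap.BilinForm.finrank_orthogonal hB U
  omega

/-- NOD1 (abstract). -/
theorem exists_lagr {V : Type*} [AddCommGroup V] [Module F V] [FiniteDimensional F V] (Q : QuadraticForm F V)
    (hQ : (polarBilin Q).Nondegenerate) (T : V ≃ₗ[F] V) (hT : ∀ v, Q (T v) = Q v) (f₁ : F[X]) (hm : f₁.Monic)
    (h0 : f₁.coeff 0 ≠ 0) (hcop : IsCoprime f₁ (tw (RingHom.id F) f₁))
    (hann : aeval (T : V →ₗ[F] V) (f₁ * tw (RingHom.id F) f₁) = 0) (h1 : ∀ v, T v = v → v = 0) :
    ∃ U : Submodule F V, (∀ u ∈ U, Q u = 0) ∧ 2 * Module.finrank F U = Module.finrank F V := by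
  let B : LinearMap.BilinForm F V := polarBilin Q
  let T' : Module.End F V := (T : V →ₗ[F] V)
  let S' : Module.End F V := (T.symm : V →ₗ[F] V)
  have hST : S' * T' = 1 := by
    ext v
    simp [T', S']
  have hTS : T' * S' = 1 := by
    ext v
    simp [T', S']
  have hB : ∀ x y, B (T' x) (T' y) = B x y := by
    intro x y
    show QuadraticMap.polar Q (T x) (T y) = QuadraticMap.polar Q x y
    unfold QuadraticMap.polar
    rw [← map_add, hT, hT, hT]
  have h0' : (tw (RingHom.id F) f₁).coeff 0 ≠ 0 := tw_coeff_zero _ f₁ hm h0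
  have htw : tw (RingHom.id F) (tw (RingHom.id F) f₁) = f₁ := tw_tw _ (fun x => rfl) f₁ hm h0
  obtain ⟨a, b, hab⟩ := id hcop
  have hab1 : a * f₁ + tw (RingHom.id F) f₁ * b = 1 := by
    rw [mul_comm (tw (RingHom.id F) f₁)]
    exact hab
  have hab2 : f₁ * a + b * tw (RingHom.id F) f₁ = 1 := by
    rw [mul_comm f₁]
    exact hab
  let U : Submodule F V := LinearMap.ker (aeval T' f₁)
  let U' : Submodule F V := LinearMap.ker (aeval T' (tw (RingHom.id F) f₁))
  have hUU : ∀ u ∈ U, ∀ w ∈ U, B u w = 0 := by
    intro u hu w hw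
    have hu' : aeval T' (tw (RingHom.id F) f₁) (aeval T' b u) = u := by
      have h5 := congrArg (fun g => aeval T' g u) hab1
      simp only [map_add, map_mul, map_one, LinearMap.add_apply, Module.End.mul_apply,
        Module.End.one_apply] at h5
      rw [LinearMap.mem_ker.1 hu, map_zero, zero_add] at h5
      exact h5
    rw [← hu', nod1_adj B T' S' hTS hB,
      nod1_kill T' S' hST hTS _ h0' w (by rw [htw]; exact LinearMap.mem_ker.1 hw), map_zero]
  have hUU' : ∀ u ∈ U', ∀ w ∈ U', B u w = 0 := by
    intro u hu w hw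
    have hu' : aeval T' f₁ (aeval T' a u) = u := by
      have h5 := congrArg (fun g => aeval T' g u) hab2
      simp only [map_add, map_mul, map_one, LinearMap.add_apply, Module.End.mul_apply,
        Module.End.one_apply] at h5
      rw [LinearMap.mem_ker.1 hu, map_zero, add_zero] at h5
      exact h5
    rw [← hu', nod1_adj B T' S' hTS hB,
      nod1_kill T' S' hST hTS _ h0 w (LinearMap.mem_ker.1 hw), map_zero]
  have hcompl : IsCompl U U' := by
    refine ⟨Polynomial.disjoint_ker_aeval_of_isCoprime T' hcop, ?_⟩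
    rw [codisjoint_iff, Polynomial.sup_ker_aeval_eq_ker_aeval_mul_of_coprime T' hcop]
    have h5 : aeval T' (f₁ * tw (RingHom.id F) f₁) = 0 := hann
    rw [h5, LinearMap.ker_zero]
  have hdim := Submodule.finrank_add_eq_of_isCompl hcompl
  have hd1 := nod1_iso_le B hQ U hUU
  have hd2 := nod1_iso_le B hQ U' hUU'
  have hTU : ∀ u ∈ U, T' u ∈ U := by
    intro u hu
    rw [LinearMap.mem_ker] at hu ⊢
    have h5 : aeval T' f₁ * T' = T' * aeval T' f₁ := by
      have h6 : aeval T' (f₁ * X) = aeval T' (X * f₁) := by rw [mul_comm]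
      rwa [map_mul, map_mul, aeval_X] at h6
    have h7 := congrArg (fun g : Module.End F V => g u) h5
    simp only [Module.End.mul_apply] at h7
    rw [h7, hu, map_zero]
  have hQ1 : ∀ u ∈ U, Q ((T' - 1) u) = 0 := by
    intro u hu
    have h5 : B (T' u) u = 0 := hUU _ (hTU u hu) u hu
    have h6 : B u u = 0 := hUU u hu u hu
    have h5' : QuadraticMap.polar Q (T u) u = 0 := h5
    have h6' : QuadraticMap.polar Q u u = 0 := h6
    rw [QuadraticMap.polar_self, two_smul] at h6'
    show Q (T u - u) = 0
    rw [sub_eq_add_neg, QuadraticMap.map_add (⇑Q), QuadraticMap.map_neg, hT,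
      QuadraticMap.polar_neg_right, h5', h6', neg_zero, add_zero]
  have hinj : Function.Injective ((T' - 1 : Module.End F V) : V → V) := by
    rw [← LinearMap.ker_eq_bot, LinearMap.ker_eq_bot']
    intro v hv
    apply h1
    have hv' : T v - v = 0 := hv
    exact sub_eq_zero.1 hv'
  have hmap : U.map (T' - 1) = U := by
    apply Submodule.eq_of_le_of_finrank_eq
    · rintro _ ⟨u, hu, rfl⟩
      exact U.sub_mem (hTU u hu) hu
    · exact (Submodule.equivMapOfInjective _ hinj U).finrank_eq.symm
  refine ⟨U, ?_, by omega⟩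
  intro u hu
  rw [← hmap] at hu
  obtain ⟨u', hu', rfl⟩ := hu
  exact hQ1 u' hu'

end Cfsg.Agent.Lib.Helper50.CC
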