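import Cfsg.Agent.Lib.Helper50.CC.Defs2
import Cfsg.Agent.Lib.Helper50.CC.NOD1
import Cfsg.Agent.Lib.Helper50.CC.HALF
import Cfsg.Agent.Lib.Helper50.CC.FIXV
import Cfsg.Agent.Lib.Helper50.CC.TW5
import Cfsg.Agent.Lib.Helper65.GR.INJ
import Cfsg.Agent.Lib.Helper49.HypPairs
import Cfsg.Agent.Lib.Helper49.MinusNoLagr
import Cfsg.Agent.Lib.Helper49.RankParity

/-! Ladder CC, rung NOD2. -/

set_option autoImplicit false

namespace Cfsg.Agent.Lib.Helper50.CC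

open Polynomial Cfsg.Agent.Lib.Helper65.GR Cfsg.Agent.Lib.Helper49 QuadraticMap Matrix

variable {F : Type*} [Field F]

/-- NOD2. -/
theorem no_full_minus_odd [Fintype F] (d : ℕ) (a' c' : F)
    (hac : ∀ z₁ z₂ : F, z₁ ^ 2 + a' * z₁ * z₂ + c' * z₂ ^ 2 = 0 → z₁ = 0 ∧ z₂ = 0) (r i : ℕ) (hr : r.Prime)
    (hrF : (r : F) ≠ 0) (hf : ∀ P, st (RingHom.id F) r P ≠ P) (a : irr F r → ℕ)
    (hsym : ∀ P, a (st (RingHom.id F) r P) = a P) (g : ↥(Cfsg.isometryGroup F (Cfsg.quadFormMinus d F a' c')))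
    (hc : (g.1.1 : Matrix _ _ F).charpoly = cp F r (2 * d + 2) i a) : i * ∑ P, a P ≠ 2 * d + 2 := by
  intro hfull
  have hσ : ∀ x : F, (RingHom.id F) ((RingHom.id F) x) = x := fun x => rfl
  obtain ⟨b, hb1, hb2⟩ := exists_half (st (RingHom.id F) r) (st_st _ hσ r hr hrF) hf a hsym
  obtain ⟨f₁, hf₁⟩ : ∃ f₁ : F[X], f₁ = ∏ P : irr F r, (P : F[X]) ^ b P := ⟨_, rfl⟩
  have htw : tw (RingHom.id F) f₁ = ∏ P : irr F r, (P : F[X]) ^ b (st (RingHom.id F) r P) := by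
    rw [hf₁]
    exact tw5_prod _ hσ r hr hrF b
  have hm : f₁.Monic := by
    rw [hf₁]
    exact monic_prod_of_monic _ _ (fun P _ => (irr_spec r P.1 P.2).1.pow _)
  have h0 : f₁.coeff 0 ≠ 0 := by
    rw [hf₁, coeff_zero_eq_eval_zero, eval_prod]
    apply Finset.prod_ne_zero_iff.2
    intro P _
    rw [eval_pow]
    apply pow_ne_zero
    rw [← coeff_zero_eq_eval_zero]
    exact irr_coeff_zero r hr.pos P.1 P.2
  have hcop : IsCoprime f₁ (tw (RingHom.id F) f₁) := by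
    rw [htw, hf₁]
    apply IsCoprime.prod_left
    intro P _
    apply IsCoprime.prod_right
    intro P' _
    by_cases hPP : P = P'
    · subst hPP
      rcases hb2 P with h | h
      · rw [h, pow_zero]
        exact isCoprime_one_left
      · rw [h, pow_zero]
        exact isCoprime_one_right
    · exact (inj_coprime r P'.1 P.1 P'.2 P.2 (fun h => hPP (Subtype.ext h).symm)).pow
  have hprod : f₁ * tw (RingHom.id F) f₁ = cp F r (2 * d + 2) i a := by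
    rw [htw, hf₁]
    unfold cp
    rw [hfull, Nat.sub_self, pow_zero, one_mul, ← Finset.prod_mul_distrib]
    apply Finset.prod_congr rfl
    intro P _
    rw [← pow_add, ← hb1]
  have hQ := minusQF_nondegenerate d F a' c' (minus_disc_ne_zero a' c' hac)
  let T : ((Fin d ⊕ Fin d) ⊕ Fin 2 → F) ≃ₗ[F] ((Fin d ⊕ Fin d) ⊕ Fin 2 → F) :=
    Matrix.toLin'OfInv (M := ((g.1⁻¹ : Matrix.GeneralLinearGroup _ F) : Matrix _ _ F))
      (M' := (g.1.1 : Matrix _ _ F)) (Units.inv_mul g.1) (Units.mul_inv g.1)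
  have hTv : ∀ v, T v = (g.1.1 : Matrix _ _ F) *ᵥ v := fun v => rfl
  have hT : ∀ v, minusQF d F a' c' (T v) = minusQF d F a' c' v := by
    intro v
    rw [minusQF_coe, hTv]
    exact g.2 v v
  have hTl : (T : ((Fin d ⊕ Fin d) ⊕ Fin 2 → F) →ₗ[F] ((Fin d ⊕ Fin d) ⊕ Fin 2 → F)) = (Matrix.toLinAlgEquiv' : _ ≃ₐ[F] _).toAlgHom (g.1.1 : Matrix _ _ F) := by
    apply LinearMap.ext
    intro v
    rfl
  have hann : aeval (T : ((Fin d ⊕ Fin d) ⊕ Fin 2 → F) →ₗ[F] ((Fin d ⊕ Fin d) ⊕ Fin 2 → F)) (f₁ * tw (RingHom.id F) f₁) = 0 := by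
    rw [hprod, ← hc, hTl, Polynomial.aeval_algHom_apply, Matrix.aeval_self_charpoly, map_zero]
  have h1 : ∀ v, T v = v → v = 0 := by
    intro v hv
    exact no_fixed r (2 * d + 2) i hr hrF a hfull (g.1.1 : Matrix _ _ F) hc v hv
  obtain ⟨U, hU, hdim⟩ := exists_lagr (minusQF d F a' c') hQ T hT f₁ hm h0 hcop hann h1
  exact not_isLagr_minusQF a' c' hac hQ U (isLagr_of_finrank hQ hU hdim)

end Cfsg.Agent.Lib.Helper50.CC
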