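import Cfsg.Agent.Lib.Helper50.CC.Defs
import Cfsg.Agent.Lib.Helper50.CC.INV
import Cfsg.Prelude.Def_Classical

set_option autoImplicit false

namespace Cfsg.Agent.Lib.Helper50.CC

open Polynomial Cfsg.Agent.Lib.Helper65.GR QuadraticMap Matrix

variable {F : Type*} [Field F]

theorem otw_ext {ι : Type} [Fintype ι] [DecidableEq ι] {M N : Matrix ι ι F}
    (h : ∀ x y, x ⬝ᵥ M *ᵥ y = x ⬝ᵥ N *ᵥ y) : M = N := by
  ext i j
  have := h (Pi.single i 1) (Pi.single j 1)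
  simpa using this

/-- OTW. -/
theorem o_tw {ι : Type} [Fintype ι] [DecidableEq ι] (Q : QuadraticForm F (ι → F))
    (hQ : (polarBilin Q).Nondegenerate) (g : ↥(Cfsg.isometryGroup F ⇑Q)) :
    tw (RingHom.id F) (g.1.1 : Matrix ι ι F).charpoly = (g.1.1 : Matrix ι ι F).charpoly := by
  set G := LinearMap.BilinForm.toMatrix' (polarBilin Q) with hGdef
  have hβ : ∀ u v, polar Q u v = u ⬝ᵥ G *ᵥ v := by
    intro u v
    rw [← Matrix.toBilin'_apply', hGdef, Matrix.toBilin'_toMatrix', polarBilin_apply_apply]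
  have hdet : G.det ≠ 0 := by
    rw [← LinearMap.BilinForm.nondegenerate_toBilin'_iff_det_ne_zero, hGdef,
      Matrix.toBilin'_toMatrix']
    exact hQ
  have hGu : IsUnit G.det := isUnit_iff_ne_zero.2 hdet
  have h1 : G * G⁻¹ = 1 := Matrix.mul_nonsing_inv _ hGu
  have h2 : G⁻¹ * G = 1 := Matrix.nonsing_inv_mul _ hGu
  have hiso : ∀ v, Q (g.1.1 *ᵥ v) = Q v := fun v => g.2 v v
  have h3 : g.1.1ᵀ * G * g.1.1 = G := by
    apply otw_ext
    intro x y
    rw [mul_assoc, ← mulVec_mulVec, dotProduct_mulVec, vecMul_transpose, ← mulVec_mulVec, ← hβ,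
      ← hβ]
    unfold polar
    rw [← mulVec_add, hiso, hiso, hiso]
  have h4 : (G⁻¹ * g.1.1ᵀ * G) * g.1.1 = 1 := by
    rw [mul_assoc, mul_assoc, ← mul_assoc _ G, h3, h2]
  have h5 : g.1.1 * (G⁻¹ * g.1.1ᵀ * G) = 1 := mul_eq_one_comm.1 h4
  rw [← charpoly_of_mul_eq_one _ _ h5, mul_assoc, Matrix.charpoly_mul_comm, mul_assoc, h1, mul_one,
    Matrix.charpoly_transpose]

end Cfsg.Agent.Lib.Helper50.CC
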