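import Cfsg.Agent.Lib.Helper50.CC.TW4

set_option autoImplicit false

namespace Cfsg.Agent.Lib.Helper50.CC

open Polynomial Cfsg.Agent.Lib.Helper65.GR

variable {F : Type*} [Field F]

theorem par_eval_one_ne (r : ℕ) (hr : r.Prime) (hrF : (r : F) ≠ 0) (P : F[X]) (hP : P ∈ irr F r) :
    P.eval 1 ≠ 0 := by
  intro h
  have h1 : (X - C (1 : F)) ∣ P := dvd_iff_isRoot.mpr h
  have h2 := irr_coprime r hr hrF P hP
  have h3 : IsCoprime (X - C (1 : F)) (X - 1) := h2.of_isCoprime_of_dvd_left h1
  rw [C_1, isCoprime_self] at h3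
  have : ¬ IsUnit (X - C (1 : F)) := not_isUnit_X_sub_C 1
  rw [C_1] at this
  exact this h3

theorem par_eval_reverse_one (f : F[X]) : f.reverse.eval 1 = f.eval 1 := by
  letI : Invertible (1 : F) := invertibleOne
  have := eval₂_reverse_mul_pow (RingHom.id F) (1 : F) f
  simpa [eval₂_id] using this

theorem par_eval_neg_one (f : F[X]) (hrev : f.reverse = f) (hodd : Odd f.natDegree) :
    f.eval (-1) = 0 := by
  rw [eval_eq_sum_range]
  obtain ⟨k, hk⟩ := hodd
  apply Finset.sum_involution (fun j _ => f.natDegree - j)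
  · intro j hj
    rw [Finset.mem_range] at hj
    have h1 : f.coeff (f.natDegree - j) = f.coeff j := by
      conv_rhs => rw [← hrev, coeff_reverse, revAt_le (by omega)]
    rw [h1, ← mul_add]
    have h2 : ((-1 : F)) ^ j + (-1) ^ (f.natDegree - j) = 0 := by
      rcases Nat.even_or_odd j with he | ho
      · have : Odd (f.natDegree - j) := by
          obtain ⟨a, ha⟩ := he
          exact ⟨k - a, by omega⟩
        rw [he.neg_one_pow, this.neg_one_pow]; ring
      · have : Even (f.natDegree - j) := by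
          obtain ⟨a, ha⟩ := ho
          exact ⟨k - a, by omega⟩
        rw [ho.neg_one_pow, this.neg_one_pow]; ring
    rw [h2, mul_zero]
  · intro j hj _
    rw [Finset.mem_range] at hj
    omega
  · intro j hj
    rw [Finset.mem_range] at hj ⊢
    omega
  · intro j hj
    rw [Finset.mem_range] at hj
    omega

/-- PAR. -/
theorem st_ne_self (r : ℕ) (hr : r.Prime) (hrF : (r : F) ≠ 0) (hr2 : r ≠ 2) (P : irr F r)
    (hodd : Odd (P : F[X]).natDegree) : st (RingHom.id F) r P ≠ P := by
  intro h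
  have h1 : tw (RingHom.id F) (P : F[X]) = P := by
    rw [← st_coe (RingHom.id F) (fun _ => rfl) r hr hrF P, h]
  have h0 := irr_coeff_zero r hr.pos P.1 P.2
  have hP1 := par_eval_one_ne r hr hrF P.1 P.2
  unfold tw at h1
  rw [Polynomial.map_id] at h1
  have h2 : (P : F[X]).reverse = C ((P : F[X]).coeff 0) * P := by
    have h9 : C ((P : F[X]).coeff 0) * (C ((P : F[X]).coeff 0)⁻¹ * (P : F[X]).reverse) =
        (P : F[X]).reverse := by
      rw [← mul_assoc, ← C_mul, mul_inv_cancel₀ h0, C_1, one_mul]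
    rw [h1] at h9
    exact h9.symm
  have h3 : (P : F[X]).coeff 0 = 1 := by
    have := congrArg (eval 1) h2
    rw [par_eval_reverse_one, eval_mul, eval_C] at this
    have h4 : ((P : F[X]).coeff 0 - 1) * (P : F[X]).eval 1 = 0 := by
      rw [sub_mul, one_mul, ← this, sub_self]
    exact sub_eq_zero.mp ((mul_eq_zero.mp h4).resolve_right hP1)
  rw [h3, C_1, one_mul] at h2
  have h5 := par_eval_neg_one _ h2 hodd
  have h6 : (P : F[X]) ∣ X ^ r - 1 := by
    refine (irr_spec r P.1 P.2).2.2.trans ?_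
    rw [← cyclotomic_prime_mul_X_sub_one F r (hn := ⟨hr⟩)]
    exact Dvd.intro _ rfl
  have h7 : (X ^ r - 1 : F[X]).eval (-1) = 0 := by
    obtain ⟨Q, hQ⟩ := h6
    rw [hQ, eval_mul, h5, zero_mul]
  have hrodd : Odd r := hr.odd_of_ne_two hr2
  simp only [eval_sub, eval_pow, eval_X, eval_one, hrodd.neg_one_pow] at h7
  have h8 : (-1 : F) = 1 := by linear_combination h7
  rw [h8] at h5
  exact hP1 h5

end Cfsg.Agent.Lib.Helper50.CC
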