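import Cfsg.Agent.Lib.Helper50.CC.Defs

set_option autoImplicit false

namespace Cfsg.Agent.Lib.Helper50.CC

open Polynomial Cfsg.Agent.Lib.Helper65.GR

variable {F : Type*} [Field F]

/-- PRED.  `card_classes_label` with `φ` chosen by `h3`, for an arbitrary predicate on labels. -/
theorem count_pred {G : Type*} [Group G] (χ : G → F[X]) (r n i : ℕ) (hr : r.Prime) (hrF : (r : F) ≠ 0)
    (L : (irr F r → ℕ) → Prop) (hconj : ∀ g h, IsConj g h → χ g = χ h)
    (h1 : ∀ g, orderOf g = r → ∃ a : irr F r → ℕ, L a ∧ χ g = cp F r n i a)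
    (h2 : ∀ g h, orderOf g = r → orderOf h = r → χ g = χ h → IsConj g h)
    (h3 : ∀ a : irr F r → ℕ, L a → ∃ g, orderOf g = r ∧ χ g = cp F r n i a) :
    Nat.card {C : ConjClasses G // ∃ g, ConjClasses.mk g = C ∧ orderOf g = r} =
      Nat.card {a : irr F r → ℕ // L a} := by
  choose φ hφ1 hφ2 using fun l : {a : irr F r → ℕ // L a} => h3 l.1 l.2
  refine card_classes_label (fun g => orderOf g = r) φ hφ1 ?_ ?_
  · intro l l' h
    apply Subtype.ext
    apply cp_injective r n i hr hrF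
    rw [← hφ2, ← hφ2]
    exact hconj _ _ h
  · intro x hx
    obtain ⟨a, hL, hxa⟩ := h1 x hx
    refine ⟨⟨a, hL⟩, ?_⟩
    exact h2 _ _ hx (hφ1 _) (by rw [hxa, hφ2])

end Cfsg.Agent.Lib.Helper50.CC
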