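import Cfsg.Agent.Lib.Helper50.CC.Defs

/-!
# Ladder CC, rung ROOT: if `r ∣ p ^ e + 1` and `σ = Frob ^ e` then `st σ r` is the identity.
-/

set_option autoImplicit false

namespace Cfsg.Agent.Lib.Helper50.CC

open Polynomial Cfsg.Agent.Lib.Helper65.GR

variable {F : Type*} [Field F]

theorem root_coeff_zero (r : ℕ) (hr : 0 < r) (P : F[X]) (hP : P ∈ irr F r) : P.coeff 0 ≠ 0 := by
  obtain ⟨_, _, h3⟩ := irr_spec r P hP
  have h4 : P ∣ X ^ r - 1 := h3.trans (cyclotomic.dvd_X_pow_sub_one r F)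
  intro h0
  obtain ⟨Q, hQ⟩ := h4
  have h5 := congrArg (fun f => f.coeff 0) hQ
  simp only [mul_coeff_zero, h0, zero_mul, coeff_sub, coeff_X_pow, coeff_one_zero] at h5
  rw [if_neg hr.ne] at h5
  simp at h5

theorem root_natDegree (σ : F →+* F) (f : F[X]) (h0 : f.coeff 0 ≠ 0) :
    (tw σ f).natDegree = f.natDegree := by
  unfold tw
  have hc : (f.map σ).coeff 0 ≠ 0 := by
    rw [coeff_map]
    exact (map_ne_zero σ).mpr h0
  rw [natDegree_C_mul (inv_ne_zero hc), reverse_natDegree, natDegree_map]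
  have : (f.map σ).natTrailingDegree = 0 := by
    rw [natTrailingDegree_eq_zero]
    exact Or.inr hc
  omega

theorem root_monic (σ : F →+* F) (f : F[X]) (h0 : f.coeff 0 ≠ 0) : (tw σ f).Monic := by
  unfold tw
  have hc : (f.map σ).coeff 0 ≠ 0 := by
    rw [coeff_map]
    exact (map_ne_zero σ).mpr h0
  have ht : (f.map σ).natTrailingDegree = 0 := by
    rw [natTrailingDegree_eq_zero]
    exact Or.inr hc
  rw [Monic, leadingCoeff_mul, leadingCoeff_C, reverse_leadingCoeff, trailingCoeff, ht]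
  exact inv_mul_cancel₀ hc

theorem root_tw_eq (p : ℕ) [Fact p.Prime] [CharP F p] (σ : F →+* F) (r : ℕ)
    (hr : r.Prime) (e : ℕ) (hσe : ∀ c : F, c ^ (p ^ e) = σ c) (hdvd : r ∣ p ^ e + 1)
    (P : F[X]) (hP : P ∈ irr F r) : tw σ P = P := by
  obtain ⟨h1, h2, h3⟩ := irr_spec r P hP
  have h0 := root_coeff_zero r hr.pos P hP
  have : Fact (Irreducible P) := ⟨h2⟩
  have : CharP (AdjoinRoot P) p := charP_of_injective_algebraMap (algebraMap F (AdjoinRoot P)).injective p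
  set l : AdjoinRoot P := AdjoinRoot.root P with hl
  have hroot : eval₂ (algebraMap F (AdjoinRoot P)) l P = 0 := by
    rw [AdjoinRoot.algebraMap_eq]
    exact AdjoinRoot.eval₂_root P
  have hlr : l ^ r = 1 := by
    have h4 : P ∣ X ^ r - 1 := h3.trans (cyclotomic.dvd_X_pow_sub_one r F)
    have h5 : eval₂ (algebraMap F (AdjoinRoot P)) l (X ^ r - 1) = 0 :=
      eval₂_eq_zero_of_dvd_of_eval₂_eq_zero _ _ h4 hroot
    simp only [eval₂_sub, eval₂_pow, eval₂_X, eval₂_one] at h5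
    exact sub_eq_zero.mp h5
  have hl1 : l ^ (p ^ e) * l = 1 := by
    obtain ⟨k, hk⟩ := hdvd
    rw [← pow_succ, hk, pow_mul, hlr, one_pow]
  have hcomp : (iterateFrobenius (AdjoinRoot P) p e).comp (algebraMap F (AdjoinRoot P)) =
      (algebraMap F (AdjoinRoot P)).comp σ := by
    ext c
    simp only [RingHom.comp_apply, iterateFrobenius_def]
    rw [← map_pow, hσe]
  have hroot2 : eval₂ (algebraMap F (AdjoinRoot P)) (l ^ (p ^ e)) (P.map σ) = 0 := by
    rw [eval₂_map, ← hcomp]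
    have h6 := hom_eval₂ P (algebraMap F (AdjoinRoot P)) (iterateFrobenius (AdjoinRoot P) p e) l
    rw [hroot, map_zero, iterateFrobenius_def] at h6
    exact h6.symm
  let inv : Invertible (l ^ (p ^ e)) := ⟨l, by rw [mul_comm]; exact hl1, hl1⟩
  have hroot3 : eval₂ (algebraMap F (AdjoinRoot P)) l (P.map σ).reverse = 0 :=
    (eval₂_reverse_eq_zero_iff (algebraMap F (AdjoinRoot P)) (l ^ (p ^ e)) (P.map σ)).mpr hroot2
  have hroot4 : eval₂ (algebraMap F (AdjoinRoot P)) l (tw σ P) = 0 := by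
    unfold tw
    rw [eval₂_mul, hroot3, mul_zero]
  have hdvd2 : P ∣ tw σ P := by
    rw [← AdjoinRoot.mk_eq_zero, ← AdjoinRoot.aeval_eq]
    exact hroot4
  exact eq_of_monic_of_dvd_of_natDegree_le h1 (root_monic σ P h0) hdvd2
    (root_natDegree σ P h0).le

/-- ROOT. -/
theorem st_eq_self (p : ℕ) [Fact p.Prime] [CharP F p] (σ : F →+* F) (hσ : ∀ x, σ (σ x) = x) (r : ℕ)
    (hr : r.Prime) (hrF : (r : F) ≠ 0) (e : ℕ) (hσe : ∀ c : F, c ^ (p ^ e) = σ c) (hdvd : r ∣ p ^ e + 1)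
    (P : irr F r) : st σ r P = P := by
  have h := root_tw_eq p σ r hr e hσe hdvd P.1 P.2
  unfold st
  split_ifs with h1
  · exact Subtype.ext h
  · rfl

end Cfsg.Agent.Lib.Helper50.CC
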