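import Cfsg.Agent.Lib.Helper50.CC.SPX
import Cfsg.Agent.Lib.Helper50.CC.MAIN
import Cfsg.Agent.Lib.Helper50.CC.PRED
import Cfsg.Agent.Lib.Helper50.CC.TW5
import Cfsg.Agent.Lib.Helper50.CC.AR1
import Cfsg.Agent.Lib.Helper50.CC.ROOT
import Cfsg.Agent.Lib.Helper50.CC.PAR
import Cfsg.Agent.Lib.Helper50.CC.CNT1
import Cfsg.Agent.Lib.Helper50.CC.CNT2
import Cfsg.Agent.Lib.Helper50.CC.GEN
import Cfsg.Agent.Lib.Helper50.CC.OTW
import Cfsg.Agent.Lib.Helper50.CC.OCJ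
import Cfsg.Agent.Lib.Helper50.CC.HYPC
import Cfsg.Agent.Lib.Helper50.CC.HYPP
import Cfsg.Agent.Lib.Helper50.CC.HYPM
import Cfsg.Agent.Lib.Helper50.CC.CPM
import Cfsg.Agent.Lib.Helper50.CC.NOD2
import Cfsg.Agent.Lib.Helper50.CC.N0P
import Cfsg.Agent.Lib.Helper50.CC.N0M
import Cfsg.Agent.Lib.Helper50.CC.NEV
import Cfsg.Agent.Lib.Helper50.CC.EEV
import Cfsg.Agent.Lib.Helper50.CC.EOD
import Cfsg.Agent.Lib.Helper50.CC.CNT4
import Cfsg.Agent.Lib.Helper50.CC.CNT5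
import Cfsg.Agent.Lib.Helper50.CC.ANI
import Cfsg.Agent.Lib.Helper50.SemiConj
import Cfsg.Agent.Lib.Helper49.HypPairs
import Cfsg.Agent.Lib.Helper49.RankParity

set_option autoImplicit false

namespace Cfsg.Agent.Lib.Helper50.CC

open Polynomial Cfsg.Agent.Lib.Helper65.GR Cfsg.Agent.Lib.Helper49 QuadraticMap Matrix

variable {F : Type*} [Field F]

/-- the common arithmetic set-up of the class counts -/
theorem setup [Fintype F] (p : ℕ) [Fact p.Prime] [CharP F p] (r i t : ℕ) (hr : r.Prime) (hr2 : r ≠ 2)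
    (hrp : r ≠ p) (hi : i = orderOf ((Fintype.card F : ℕ) : ZMod r)) (ht : t * i = r - 1) :
    (r : F) ≠ 0 ∧ 1 ≤ i ∧ 1 ≤ t ∧ (∀ P ∈ irr F r, P.natDegree = i) ∧ Fintype.card (irr F r) = t ∧
    (Odd i → ∀ P, st (RingHom.id F) r P ≠ P) ∧ (¬ Odd i → ∀ P, st (RingHom.id F) r P = P) ∧
    (∀ P, st (RingHom.id F) r (st (RingHom.id F) r P) = P) ∧
    (∀ a : irr F r → ℕ, (∀ P, a (st (RingHom.id F) r P) = a P) → Even (i * ∑ P, a P)) := by
  have hp : p.Prime := Fact.out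
  have hrF : (r : F) ≠ 0 := by
    intro h
    rw [CharP.cast_eq_zero_iff F p r] at h
    exact hrp ((Nat.prime_dvd_prime_iff_eq hp hr).mp h).symm
  have hi1 : 1 ≤ i := by
    rcases Nat.eq_zero_or_pos i with h | h
    · rw [h, mul_zero] at ht
      have := hr.two_le
      omega
    · exact h
  have ht1 : 1 ≤ t := by
    rcases Nat.eq_zero_or_pos t with h | h
    · rw [h, zero_mul] at ht
      have := hr.two_le
      omega
    · exact h
  have hdeg : ∀ P ∈ irr F r, P.natDegree = i := fun P hP => by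
    rw [hi]; exact irr_natDegree p r hr hrp P hP
  have hcard : Fintype.card (irr F r) = t := by
    rw [Fintype.card_coe]; exact card_irr p r i t hr hrp hi ht
  have hσ : ∀ x : F, (RingHom.id F) ((RingHom.id F) x) = x := fun x => rfl
  have hd1 : Odd i → ∀ P, st (RingHom.id F) r P ≠ P := by
    intro hodd P
    exact st_ne_self r hr hrF hr2 P (by rw [hdeg P.1 P.2]; exact hodd)
  have hd2 : ¬ Odd i → ∀ P, st (RingHom.id F) r P = P := by
    intro hev P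
    rw [Nat.not_odd_iff_even] at hev
    obtain ⟨e, he1, he2⟩ := exists_pow_neg_one p (F := F) r i hr hr2 hrp hi hev
    exact st_eq_self p (RingHom.id F) hσ r hr hrF e he1 he2 P
  refine ⟨hrF, hi1, ht1, hdeg, hcard, hd1, hd2, st_st _ hσ r hr hrF, ?_⟩
  intro a ha
  by_cases hodd : Odd i
  · exact (even_sum_of_free _ (st_st _ hσ r hr hrF) (hd1 hodd) a ha).mul_left i
  · rw [Nat.not_odd_iff_even] at hodd
    exact hodd.mul_right _

theorem o_charpoly_conj {ι : Type} [Fintype ι] [DecidableEq ι] (Q₀ : (ι → F) → F)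
    (g h : ↥(Cfsg.isometryGroup F Q₀)) (hgh : IsConj g h) :
    (g.1.1 : Matrix ι ι F).charpoly = (h.1.1 : Matrix ι ι F).charpoly := by
  obtain ⟨c, hc⟩ := isConj_iff.mp hgh
  rw [← hc]
  have h1 : ((c * g * c⁻¹ : ↥(Cfsg.isometryGroup F Q₀)).1.1 : Matrix ι ι F) = c.1.1 * g.1.1 * (c⁻¹).1.1 := rfl
  have h2 : (c⁻¹).1.1 * c.1.1 = (1 : Matrix ι ι F) := by
    have := congrArg (fun x : ↥(Cfsg.isometryGroup F Q₀) => (x.1.1 : Matrix ι ι F)) (inv_mul_cancel c)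
    exact this
  rw [h1, Matrix.charpoly_mul_comm, ← mul_assoc, h2, one_mul]

theorem o_label {ι : Type} [Fintype ι] [DecidableEq ι] (Q₀ : (ι → F) → F) (Q : QuadraticForm F (ι → F))
    (hQQ : ⇑Q = Q₀) (hQ : (polarBilin Q).Nondegenerate) (r n i : ℕ) (hr : r.Prime) (hrF : (r : F) ≠ 0)
    (hdeg : ∀ P ∈ irr F r, P.natDegree = i) (hn : Fintype.card ι = n)
    (g : ↥(Cfsg.isometryGroup F Q₀)) (hg : orderOf g = r) :
    ∃ a : irr F r → ℕ, a ≠ 0 ∧ i * ∑ P, a P ≤ n ∧ (∀ P, a (st (RingHom.id F) r P) = a P) ∧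
      (g.1.1 : Matrix ι ι F).charpoly = cp F r n i a := by
  subst hQQ
  have hσ : ∀ x : F, (RingHom.id F) ((RingHom.id F) x) = x := fun x => rfl
  have hgr : (g.1.1 : Matrix ι ι F) ^ r = 1 := by
    have := congrArg (fun x : ↥(Cfsg.isometryGroup F ⇑Q) => (x.1.1 : Matrix ι ι F)) (pow_orderOf_eq_one g)
    rw [hg] at this
    exact this
  obtain ⟨a, ha, hga⟩ := charpoly_eq_cp' r n i hr hrF hdeg hn _ hgr
  refine ⟨a, ?_, ha, ?_, hga⟩
  · intro ha0
    obtain ⟨x, hx⟩ := Cfsg.Agent.Lib.Helper50.SemiConj.exists_conj_of_pow (g.1.1 : Matrix ι ι F) 1 r 1 hrF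
      (by simp) hgr (by simp) (by
        rw [hga, ha0, Matrix.charpoly_one, hn]
        simp [cp])
    have h1 : (g.1.1 : Matrix ι ι F) = 1 := by
      have : (x⁻¹ : (Matrix ι ι F)ˣ).1 * (x.1 * g.1.1) = (x⁻¹ : (Matrix ι ι F)ˣ).1 * (1 * x.1) := by rw [hx]
      rw [← mul_assoc, one_mul, Units.inv_mul, one_mul] at this
      exact this
    have h2 : g = 1 := Subtype.ext (Units.ext h1)
    rw [h2, orderOf_one] at hg
    exact hr.one_lt.ne hg
  · rw [← sym_iff_tw (RingHom.id F) hσ r n i hr hrF a, ← hga]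
    exact o_tw Q hQ g

theorem o_conj' [Finite F] {ι : Type} [Fintype ι] [DecidableEq ι] (p : ℕ) [Fact p.Prime] [CharP F p]
    (Q₀ : (ι → F) → F) (Q : QuadraticForm F (ι → F)) (hQQ : ⇑Q = Q₀) (hQ : (polarBilin Q).Nondegenerate)
    (r : ℕ) (hr : r.Prime) (hr2 : r ≠ 2)
    (hrp : r ≠ p) (g h : ↥(Cfsg.isometryGroup F Q₀)) (hg : orderOf g = r) (hh : orderOf h = r)
    (hc : (g.1.1 : Matrix ι ι F).charpoly = (h.1.1 : Matrix ι ι F).charpoly) : IsConj g h := by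
  subst hQQ
  exact o_conj p Q hQ r hr hr2 hrp g h hg hh hc

end Cfsg.Agent.Lib.Helper50.CC
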