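import Cfsg.Agent.Lib.Helper50.CC.Defs

/-!
# Ladder CC, rung ORD: a semisimple matrix with characteristic polynomial `cp` has `M ^ r = 1`.
-/

set_option autoImplicit false

namespace Cfsg.Agent.Lib.Helper50.CC

open Polynomial Cfsg.Agent.Lib.Helper65.GR

variable {F : Type*} [Field F]

/-- ORD. -/
theorem pow_eq_one_of_charpoly {ι : Type*} [Fintype ι] [DecidableEq ι] (r n i : ℕ) (hr : r.Prime)
    (hrF : (r : F) ≠ 0) (hi : 1 ≤ i) (a : irr F r → ℕ) (ha : i * ∑ P, a P ≤ n) (M : Matrix ι ι F) (k : ℕ)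
    (hk : (k : F) ≠ 0) (hMk : M ^ k = 1) (hc : M.charpoly = cp F r n i a) : M ^ r = 1 := by
  have hdvd := cp_dvd r n i hr hrF hi a ha
  have hss : Module.End.IsSemisimple (Matrix.toLin' M) := by
    apply Module.End.isSemisimple_of_squarefree_aeval_eq_zero (p := X ^ k - 1)
    · exact (X_pow_sub_one_separable_iff.2 hk).squarefree
    · have := congrArg Matrix.toLinAlgEquiv' hMk
      rw [map_pow, map_one] at this
      rw [map_sub, map_pow, aeval_X, map_one]
      exact sub_eq_zero.mpr this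
  have hsq := hss.minpoly_squarefree
  rw [Matrix.minpoly_toLin'] at hsq
  have h1 : minpoly F M ∣ (X ^ r - 1) ^ (n + 1) := by
    refine (Matrix.minpoly_dvd_charpoly M).trans ?_
    rw [hc]
    exact hdvd.trans (pow_dvd_pow _ (Nat.le_succ n))
  rw [hsq.dvd_pow_iff_dvd (Nat.succ_ne_zero n), minpoly.dvd_iff] at h1
  simpa [sub_eq_zero] using h1

end Cfsg.Agent.Lib.Helper50.CC
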