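import Cfsg.Agent.Lib.Helper50.CC.TW5

/-! Ladder CC, rung PAL: palindromic polynomials. -/

set_option autoImplicit false

namespace Cfsg.Agent.Lib.Helper50.CC

open Polynomial Cfsg.Agent.Lib.Helper65.GR

variable {F : Type*} [Field F]

/-- PAL1. -/
theorem tw_of_reverse (f : F[X]) (hm : f.Monic) (h : f.reverse = f) : tw (RingHom.id F) f = f := by
  unfold tw
  rw [Polynomial.map_id, h]
  have h0 : f.coeff 0 = 1 := by
    rw [← h, coeff_zero_reverse]
    exact hm
  rw [h0]
  simp

theorem pal_reverse_pow (f : F[X]) (k : ℕ) : (f ^ k).reverse = f.reverse ^ k := by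
  induction k with
  | zero =>
    have := reverse_C (1 : F)
    simpa using this
  | succ k ih => rw [pow_succ, reverse_mul_of_domain, ih, pow_succ]

theorem pal_reverse_X_sub_one : (X - 1 : F[X]).reverse = -(X - 1) := by
  have h := tw_X_sub_one (RingHom.id F)
  unfold tw at h
  rw [Polynomial.map_id] at h
  have h0 : (X - 1 : F[X]).coeff 0 = -1 := by simp
  rw [h0] at h
  have h1 : (C (-1 : F)⁻¹ : F[X]) = -1 := by
    rw [inv_neg, inv_one]; simp
  rw [h1] at h
  have h2 : -(X - 1 : F[X]) = -(-1 * (X - 1 : F[X]).reverse) := by rw [h]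
  rw [h2]
  ring

theorem pal_eval_one_reverse (g : F[X]) : g.reverse.eval 1 = g.eval 1 := by
  letI : Invertible (1 : F) := invertibleOne
  have h := eval₂_reverse_mul_pow (RingHom.id F) (1 : F) g
  simpa [eval₂_id] using h

theorem pal_eval_ne (r : ℕ) (hr : r.Prime) (hrF : (r : F) ≠ 0) (P : F[X]) (hP : P ∈ irr F r) :
    P.eval 1 ≠ 0 := by
  intro h0
  have h1 : (X - C (1 : F)) ∣ P := dvd_iff_isRoot.mpr h0
  have h2 := irr_coprime r hr hrF P hP
  have h3 : IsUnit (X - C (1 : F)) := by
    apply h2.isUnit_of_dvd' h1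
    simp
  exact (irreducible_X_sub_C (1 : F)).not_isUnit h3

/-- a monic-twisted-palindromic polynomial not vanishing at `1` is palindromic -/
theorem pal_reverse_of_tw (g : F[X]) (h : tw (RingHom.id F) g = g) (h1 : g.eval 1 ≠ 0) :
    g.reverse = g := by
  unfold tw at h
  rw [Polynomial.map_id] at h
  have h2 := congrArg (eval 1) h
  rw [eval_mul, eval_C, pal_eval_one_reverse] at h2
  have h3 : (g.coeff 0)⁻¹ = 1 := mul_right_cancel₀ h1 (by rw [h2, one_mul])
  rw [h3] at h
  simpa using h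

/-- PAL2. -/
theorem cp_reverse (r n i : ℕ) (hr : r.Prime) (hrF : (r : F) ≠ 0) (a : irr F r → ℕ)
    (hsym : ∀ P, a (st (RingHom.id F) r P) = a P) (he : Even (n - i * ∑ P, a P)) :
    (cp F r n i a).reverse = cp F r n i a := by
  unfold cp
  rw [reverse_mul_of_domain, pal_reverse_pow, pal_reverse_X_sub_one, he.neg_pow]
  congr 1
  apply pal_reverse_of_tw
  · rw [tw5_prod (RingHom.id F) (fun _ => rfl) r hr hrF]
    apply Finset.prod_congr rfl
    intro P _
    rw [hsym]
  · rw [eval_prod]
    apply Finset.prod_ne_zero_iff.mpr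
    intro P _
    rw [eval_pow]
    exact pow_ne_zero _ (pal_eval_ne r hr hrF P.1 P.2)

end Cfsg.Agent.Lib.Helper50.CC
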