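import Cfsg.Agent.Lib.Helper50.CC.Defs
import Cfsg.Agent.Lib.Helper50.SpClass

set_option autoImplicit false

namespace Cfsg.Agent.Lib.Helper50.CC

open Polynomial Cfsg.Agent.Lib.Helper65.GR

variable {F : Type*} [Field F]

/-- monic palindromic polynomials of degree `2 m` are determined by the coefficients `1, …, m`. -/
theorem sp1_eq_of_coeff (m : ℕ) (f g : F[X]) (hf : f.Monic) (hg : g.Monic) (df : f.natDegree = 2 * m)
    (dg : g.natDegree = 2 * m) (rf : f.reverse = f) (rg : g.reverse = g)
    (hc : ∀ i : Fin m, f.coeff (i + 1) = g.coeff (i + 1)) : f = g := by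
  have hpal : ∀ (x : F[X]), x.natDegree = 2 * m → x.reverse = x → ∀ i, i ≤ 2 * m →
      x.coeff i = x.coeff (2 * m - i) := by
    intro x dx rx i hi
    conv_lhs => rw [← rx]
    rw [coeff_reverse, dx, revAt_le hi]
  have htf : f.coeff (2 * m) = 1 := by
    have := hf.coeff_natDegree
    rwa [df] at this
  have htg : g.coeff (2 * m) = 1 := by
    have := hg.coeff_natDegree
    rwa [dg] at this
  have key : ∀ i, i ≤ m → f.coeff i = g.coeff i := by
    intro i hi
    rcases Nat.eq_zero_or_pos i with rfl | hpos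
    · rw [hpal f df rf 0 (by omega), hpal g dg rg 0 (by omega), Nat.sub_zero, htf, htg]
    · have := hc ⟨i - 1, by omega⟩
      have e : i - 1 + 1 = i := by omega
      simpa [e] using this
  ext i
  by_cases h1 : i ≤ m
  · exact key i h1
  · by_cases h2 : i ≤ 2 * m
    · rw [hpal f df rf i h2, hpal g dg rg i h2]
      exact key _ (by omega)
    · rw [coeff_eq_zero_of_natDegree_lt (by rw [df]; omega),
        coeff_eq_zero_of_natDegree_lt (by rw [dg]; omega)]

/-- SP1. -/
theorem sp_exists [Fintype F] (p : ℕ) [Fact p.Prime] [CharP F p] (m : ℕ) (f : F[X]) (hm : f.Monic)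
    (hd : f.natDegree = 2 * m) (hrev : f.reverse = f) :
    ∃ s : Matrix.symplecticGroup (Fin m) F, (orderOf s).Coprime p ∧
      (s : Matrix (Fin m ⊕ Fin m) (Fin m ⊕ Fin m) F).charpoly = f := by
  classical
  have hdeg : ∀ x : Matrix.symplecticGroup (Fin m) F,
      (x : Matrix (Fin m ⊕ Fin m) (Fin m ⊕ Fin m) F).charpoly.natDegree = 2 * m := by
    intro x
    rw [Matrix.charpoly_natDegree_eq_dim, Fintype.card_sum, Fintype.card_fin, two_mul]
  let φ : {c : ConjClasses ↥(Matrix.symplecticGroup (Fin m) F) //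
      ∃ g : ↥(Matrix.symplecticGroup (Fin m) F), ConjClasses.mk g = c ∧ (orderOf g).Coprime p} →
      (Fin m → F) :=
    fun c i => (c.2.choose : Matrix (Fin m ⊕ Fin m) (Fin m ⊕ Fin m) F).charpoly.coeff (i + 1)
  have hφ : Function.Injective φ := by
    intro c c' hcc
    have h1 := c.2.choose_spec
    have h2 := c'.2.choose_spec
    apply Subtype.ext
    rw [← h1.1, ← h2.1, ConjClasses.mk_eq_mk_iff_isConj]
    exact SpClass.conj_of_charpoly p _ _ h1.2 h2.2
      (SpClass.charpoly_eq_of_coeff _ _ (fun i => congrFun hcc i))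
  have hfin : Finite {c : ConjClasses ↥(Matrix.symplecticGroup (Fin m) F) //
      ∃ g : ↥(Matrix.symplecticGroup (Fin m) F), ConjClasses.mk g = c ∧ (orderOf g).Coprime p} :=
    Finite.of_injective φ hφ
  have := Fintype.ofFinite {c : ConjClasses ↥(Matrix.symplecticGroup (Fin m) F) //
      ∃ g : ↥(Matrix.symplecticGroup (Fin m) F), ConjClasses.mk g = c ∧ (orderOf g).Coprime p}
  have hbij : Function.Bijective φ := by
    rw [Fintype.bijective_iff_injective_and_card]
    refine ⟨hφ, ?_⟩
    rw [← Nat.card_eq_fintype_card, SpClass.card_classes p m, Fintype.card_fun, Fintype.card_fin]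
  obtain ⟨c, hc⟩ := hbij.2 (fun i => f.coeff (i + 1))
  refine ⟨c.2.choose, c.2.choose_spec.2, ?_⟩
  exact sp1_eq_of_coeff m _ _ (Matrix.charpoly_monic _) hm (hdeg _) hd
    (SpClass.charpoly_reverse _) hrev (fun i => congrFun hc i)

end Cfsg.Agent.Lib.Helper50.CC
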