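import Cfsg.Agent.Lib.Helper50.CC.PAL
import Cfsg.Agent.Lib.Helper50.CC.GEN
import Cfsg.Agent.Lib.Helper50.CC.ORD
import Cfsg.Agent.Lib.Helper50.CC.SP1

set_option autoImplicit false

namespace Cfsg.Agent.Lib.Helper50.CC

open Polynomial Cfsg.Agent.Lib.Helper65.GR

variable {F : Type*} [Field F]

/-- SPX.  elements of order `r` of `Sp` with prescribed characteristic polynomial -/
theorem sp_exists_order [Fintype F] (p : ℕ) [Fact p.Prime] [CharP F p] (m r i : ℕ) (hr : r.Prime) (hrp : r ≠ p)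
    (hi : 1 ≤ i) (hdeg : ∀ P ∈ irr F r, P.natDegree = i) (a : irr F r → ℕ) (ha0 : a ≠ 0)
    (ha : i * ∑ P, a P ≤ 2 * m) (hsym : ∀ P, a (st (RingHom.id F) r P) = a P)
    (hev : Even (2 * m - i * ∑ P, a P)) :
    ∃ g : Matrix.symplecticGroup (Fin m) F, orderOf g = r ∧
      (g : Matrix (Fin m ⊕ Fin m) (Fin m ⊕ Fin m) F).charpoly = cp F r (2 * m) i a := by
  have hp : p.Prime := Fact.out
  have hrF : (r : F) ≠ 0 := by
    intro h
    rw [CharP.cast_eq_zero_iff F p r] at h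
    exact hrp ((Nat.prime_dvd_prime_iff_eq hp hr).mp h).symm
  have hn : Fintype.card (Fin m ⊕ Fin m) = 2 * m := by simp; ring
  obtain ⟨g, hg, hc⟩ := sp_exists p m (cp F r (2 * m) i a) (cp_monic r _ i a)
    (cp_natDegree r _ i a hdeg ha) (cp_reverse r _ i hr hrF a hsym hev)
  refine ⟨g, ?_, hc⟩
  have hgr := pow_eq_one_of_charpoly r (2 * m) i hr hrF hi a ha g.1 (orderOf g)
    (Cfsg.Agent.Lib.Helper50.SemiConj.cast_ne_zero_of_coprime p hg hp.ne_one)
    (by rw [← SubmonoidClass.coe_pow, pow_orderOf_eq_one]; rfl) hc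
  have : Fact r.Prime := ⟨hr⟩
  apply orderOf_eq_prime
  · apply Subtype.ext
    rw [SubmonoidClass.coe_pow, hgr]; rfl
  · intro h1
    exact ha0 (ne_one_of_charpoly r (2 * m) i hr hrF hn a g.1 hc (by rw [h1]; rfl))

end Cfsg.Agent.Lib.Helper50.CC
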