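import Cfsg.Agent.Lib.Helper50.CC.Defs

/-! Ladder CC, rung TW1: `tw σ` is multiplicative. -/

set_option autoImplicit false

namespace Cfsg.Agent.Lib.Helper50.CC

open Polynomial Cfsg.Agent.Lib.Helper65.GR

variable {F : Type*} [Field F]

/-- TW1. -/
theorem tw_mul (σ : F →+* F) (f g : F[X]) : tw σ (f * g) = tw σ f * tw σ g := by
  unfold tw
  rw [Polynomial.map_mul, reverse_mul_of_domain, mul_coeff_zero, mul_inv, C_mul]
  ring

/-- TW1. -/
theorem tw_one (σ : F →+* F) : tw σ (1 : F[X]) = 1 := by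
  unfold tw
  have h : (1 : F[X]).reverse = 1 := by
    have := reverse_C (1 : F)
    simpa using this
  simp [h]

/-- TW1. -/
theorem tw_pow (σ : F →+* F) (f : F[X]) (k : ℕ) : tw σ (f ^ k) = tw σ f ^ k := by
  induction k with
  | zero => simp [tw_one]
  | succ k ih => rw [pow_succ, tw_mul, ih, pow_succ]

/-- TW1. -/
theorem tw_prod (σ : F →+* F) {ι : Type*} (s : Finset ι) (f : ι → F[X]) :
    tw σ (∏ x ∈ s, f x) = ∏ x ∈ s, tw σ (f x) := by
  classical
  induction s using Finset.induction_on with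
  | empty => simp [tw_one]
  | insert a s ha ih => rw [Finset.prod_insert ha, tw_mul, ih, Finset.prod_insert ha]

end Cfsg.Agent.Lib.Helper50.CC
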