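import Cfsg.Agent.Lib.Helper50.CC.TW1
import Cfsg.Agent.Lib.Helper50.CC.TW2
import Cfsg.Agent.Lib.Helper50.CC.TW3

/-! Ladder CC, rung TW4: `tw σ` permutes the irreducible factors of the cyclotomic polynomial. -/

set_option autoImplicit false

namespace Cfsg.Agent.Lib.Helper50.CC

open Polynomial Cfsg.Agent.Lib.Helper65.GR

variable {F : Type*} [Field F]

/-- TW4a. -/
theorem irr_coeff_zero (r : ℕ) (hr : 0 < r) (P : F[X]) (hP : P ∈ irr F r) : P.coeff 0 ≠ 0 := by
  intro h0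
  have h1 : P ∣ X ^ r - 1 := (irr_spec r P hP).2.2.trans (cyclotomic.dvd_X_pow_sub_one r F)
  have h2 : (X : F[X]) ∣ X ^ r - 1 := (X_dvd_iff.mpr h0).trans h1
  rw [X_dvd_iff] at h2
  simp [coeff_X_pow, hr.ne] at h2

theorem tw4_X_pow_sub_one (σ : F →+* F) (r : ℕ) (hr : 0 < r) :
    tw σ (X ^ r - 1 : F[X]) = X ^ r - 1 := by
  have hd : (X ^ r - 1 : F[X]).natDegree = r := by
    have := natDegree_X_pow_sub_C (n := r) (r := (1 : F))
    simpa using this
  have hc : ∀ m, (X ^ r - 1 : F[X]).coeff m = (if m = r then 1 else 0) - (if m = 0 then 1 else 0) := by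
    intro m
    rw [coeff_sub, coeff_X_pow, coeff_one]
  ext n
  rw [tw2_coeff, hd, hc, hc, hc]
  by_cases hn : n ≤ r
  · rw [revAt_le hn]
    by_cases h0 : n = 0
    · subst h0
      simp [hr.ne, hr.ne']
    · by_cases h1 : n = r
      · subst h1
        simp [hr.ne, hr.ne']
      · have h2 : r - n ≠ r := by omega
        have h3 : r - n ≠ 0 := by omega
        simp [h0, h1, h2, h3]
  · rw [revAt_eq_self_of_lt (by omega)]
    have h0 : n ≠ 0 := by omega
    have h1 : n ≠ r := by omega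
    simp [h0, h1]

theorem tw4_isUnit (σ : F →+* F) (A : F[X]) (h0 : A.coeff 0 ≠ 0) (h : IsUnit (tw σ A)) : IsUnit A := by
  have h1 : (tw σ A).natDegree = 0 := natDegree_eq_zero_of_isUnit h
  rw [tw_natDegree σ A h0] at h1
  rw [eq_C_of_natDegree_eq_zero h1]
  exact isUnit_C.mpr (isUnit_iff_ne_zero.mpr h0)

theorem tw4_irreducible (σ : F →+* F) (hσ : ∀ x, σ (σ x) = x) (P : F[X]) (hm : P.Monic)
    (h0 : P.coeff 0 ≠ 0) (hi : Irreducible P) : Irreducible (tw σ P) := by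
  rw [irreducible_iff]
  constructor
  · intro hu
    exact hi.not_isUnit (tw4_isUnit σ P h0 hu)
  · intro A B hAB
    have hc := tw_coeff_zero σ P hm h0
    rw [hAB, mul_coeff_zero] at hc
    have hA : A.coeff 0 ≠ 0 := left_ne_zero_of_mul hc
    have hB : B.coeff 0 ≠ 0 := right_ne_zero_of_mul hc
    have h1 : P = tw σ A * tw σ B := by
      rw [← tw_mul, ← hAB, tw_tw σ hσ P hm h0]
    rcases hi.isUnit_or_isUnit h1 with h | h
    · exact Or.inl (tw4_isUnit σ A hA h)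
    · exact Or.inr (tw4_isUnit σ B hB h)

/-- TW4. -/
theorem tw_mem_irr (σ : F →+* F) (hσ : ∀ x, σ (σ x) = x) (r : ℕ) (hr : r.Prime) (hrF : (r : F) ≠ 0)
    (P : F[X]) (hP : P ∈ irr F r) : tw σ P ∈ irr F r := by
  obtain ⟨hm, hi, hd⟩ := irr_spec r P hP
  have h0 := irr_coeff_zero r hr.pos P hP
  have hi' := tw4_irreducible σ hσ P hm h0 hi
  have hm' := tw_monic σ P h0
  refine mem_irr r hr.pos _ hm' hi' ?_
  have h1 : P ∣ X ^ r - 1 := hd.trans (cyclotomic.dvd_X_pow_sub_one r F)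
  have h2 : tw σ P ∣ X ^ r - 1 := by
    obtain ⟨R, hR⟩ := h1
    have := tw4_X_pow_sub_one σ r hr.pos
    rw [hR, tw_mul] at this
    rw [hR, ← this]
    exact dvd_mul_right _ _
  rw [← cyclotomic_prime_mul_X_sub_one F r (hn := ⟨hr⟩)] at h2
  rcases hi'.prime.dvd_or_dvd h2 with h | h
  · exact h
  · exfalso
    have hX : Irreducible (X - 1 : F[X]) := by
      have := irreducible_X_sub_C (1 : F)
      simpa using this
    have hXm : (X - 1 : F[X]).Monic := by
      have := monic_X_sub_C (1 : F)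
      simpa using this
    have h3 : tw σ P = X - 1 := eq_of_monic_of_associated hm' hXm (hi'.associated_of_dvd hX h)
    have h4 : P = X - 1 := by
      rw [← tw_tw σ hσ P hm h0, h3, tw_X_sub_one]
    have h5 := irr_coprime r hr hrF P hP
    rw [h4, isCoprime_self] at h5
    exact hX.not_isUnit h5

/-- TW4b. -/
theorem st_coe (σ : F →+* F) (hσ : ∀ x, σ (σ x) = x) (r : ℕ) (hr : r.Prime) (hrF : (r : F) ≠ 0)
    (P : irr F r) : ((st σ r P : irr F r) : F[X]) = tw σ (P : F[X]) := by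
  unfold st
  rw [dif_pos (tw_mem_irr σ hσ r hr hrF P.1 P.2)]

/-- TW4b. -/
theorem st_st (σ : F →+* F) (hσ : ∀ x, σ (σ x) = x) (r : ℕ) (hr : r.Prime) (hrF : (r : F) ≠ 0)
    (P : irr F r) : st σ r (st σ r P) = P := by
  apply Subtype.ext
  rw [st_coe σ hσ r hr hrF, st_coe σ hσ r hr hrF]
  exact tw_tw σ hσ P.1 (irr_spec r P.1 P.2).1 (irr_coeff_zero r hr.pos P.1 P.2)

end Cfsg.Agent.Lib.Helper50.CC
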